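import Cfsg.Agent.TT.LargeF
import Cfsg.Agent.GT.Quo
import Cfsg.Prelude.Def_MonsterType

/-! # Establishing the extraspecial-centralizer setting in a quotient -/

set_option autoImplicit false

namespace Cfsg.Agent.Leech

open Cfsg.Agent.GT Cfsg.Agent.TT Subgroup

theorem fstar_eq {G : Type*} [Group G] [Finite G] {D R : Subgroup G} (hR : R ≤ D) (hn : D ≤ N[R])
    (h2 : IsPGroup 2 R) (hc : D ⊓ C[R] ≤ R) (hO : piCoreOf {2} D ≤ R) : fstarOf D = R := by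
  have h1 : R ≤ piCoreOf {2} D := le_piCoreOf_single Nat.prime_two hR hn h2
  have h3 : R ≤ fittingOf D := h1.trans (piCoreOf_single_le_fittingOf Nat.prime_two)
  refine le_antisymm (sup_le ?_ ?_) (h3.trans le_sup_right)
  · exact (le_inf (layerOf_le D) ((layerOf_le_cent_fittingOf D).trans (cent_anti h3))).trans hc
  · refine (fittingOf_le_sup_piCoreOf {2}).trans (sup_le hO ?_)
    exact (le_inf (piCoreOf_le _ _) (piCoreOf_compl_le_cent.trans (cent_anti h1))).trans hc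

theorem quot_center_eq {G : Type*} [Group G] {C R : Subgroup G} {z : G} (hE : ES R z) (hR : R ≤ C)
    (q q' : R.subgroupOf C) :
    (QuotientGroup.mk q : R.subgroupOf C ⧸ center (R.subgroupOf C)) = QuotientGroup.mk q' ↔
      ((q' : C) : G) = (q : C) ∨ ((q' : C) : G) = (q : C) * z := by
  rw [QuotientGroup.eq, eq_comm (b := ((q : C) : G)), ← inv_mul_eq_one,
    ← inv_mul_eq_iff_eq_mul, ← hE.mem_zp, ← hE.center_eq, mem_center_iff]
  constructor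
  · intro h
    exact ⟨(q⁻¹ * q').2, fun y hy =>
      congrArg (fun x : R.subgroupOf C => ((x : C) : G)) (h ⟨⟨y, hR hy⟩, hy⟩)⟩
  · intro h y
    exact Subtype.ext (Subtype.ext (h.2 _ y.2))

theorem setting_of {H L : Type*} [Group H] [Finite H] [Group L] {z : H} {R : Subgroup H}
    (hE : ES R z) {w : ℕ} (hc : Nat.card R = 2 ^ (2 * w + 1)) (θ : C1[z] →* L)
    (hθ : Function.Surjective θ) (hk : kr θ = R)
    (hO : ∀ N : Subgroup L, N.Normal → IsPGroup 2 N → N = ⊥)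
    (hf : ∀ N : Subgroup L, N.Normal → N ≤ im θ C[R] → N = ⊥)
    (hw : ∃ g, g * z * g⁻¹ ∈ R ∧ g * z * g⁻¹ ≠ z) :
    ∃ _ : (R.subgroupOf C1[z]).Normal, IsExtraspecialCentralizerSetting z (R.subgroupOf C1[z]) w ∧
      ∃ e : C1[z] ⧸ R.subgroupOf C1[z] ≃* L, ∀ h, e (QuotientGroup.mk h) = θ h := by
  have hR := hE.le_cent1
  have hn : C1[z] ≤ N[R] := hk ▸ dom_le_norm_kr
  have hker : R.subgroupOf C1[z] = θ.ker := by rw [← hk, kr_subgroupOf]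
  have nrm : ∀ X : Subgroup H, C1[z] ≤ N[X] → (im θ X).Normal := fun X hX => by
    rw [normal_iff_top_le_norm, ← im_dom_of_surj hθ]; exact im_norm hX
  have h1 : C[R] ≤ R := by
    have := hf _ (nrm _ (le_norm_cent hn)) le_rfl
    rwa [im_eq_bot_iff (cent_le_cent1 hE.mem), hk] at this
  have h2 : piCoreOf {2} C1[z] ≤ R := by
    have := hO _ (nrm _ (self_le_norm_piCoreOf {2} _))
      (isPGroup_im (piCoreOf_isPGroup Nat.prime_two _))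
    rwa [im_eq_bot_iff (piCoreOf_le _ _), hk] at this
  have := normal_subgroupOf hn
  refine ⟨this, ⟨orderOf_eq_prime (by rw [sq, hE.zz]) hE.ne, ?_,
    (hE.subgroupOf hR).isExtraspecial, by rw [card_subgroupOf hR, hc], ?_⟩,
    (QuotientGroup.quotientMulEquivOfEq hker).trans
      (QuotientGroup.quotientKerEquivOfSurjective θ hθ), fun _ => rfl⟩
  · apply map_injective C1[z].subtype_injective
    rw [map_subtype_fstar, fstar_eq hR hn hE.isPGroup (inf_le_right.trans h1) h2,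
      subgroupOf_map_subtype, inf_eq_left.2 hR]
  · obtain ⟨g, h1, h2⟩ := hw
    exact ⟨g, ⟨hR h1, h1⟩, h2⟩

theorem setting_quot {G H L : Type*} [Group G] [Group H] [Finite H] [Group L]
    {M D R : Subgroup G} {z : G} (ρ : M →* H) (hρ : Function.Surjective ρ) (hzM : z ∈ M)
    (hRD : R ≤ D) (hDM : D ≤ M) (hC : ∀ m : M, Commute (ρ m) (ρ ⟨z, hzM⟩) → (m : G) ∈ D)
    (hD : D ≤ C1[z]) (hE : ES (im ρ R) (ρ ⟨z, hzM⟩)) {w : ℕ}
    (hc : Nat.card (im ρ R) = 2 ^ (2 * w + 1)) (θ : D →* L) (hθ : Function.Surjective θ)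
    (hk : kr θ = R ⊔ kr ρ) (hO : ∀ N : Subgroup L, N.Normal → IsPGroup 2 N → N = ⊥)
    (hf : ∀ N : Subgroup L, N.Normal →
      (∀ y ∈ N, ∃ d : D, θ d = y ∧ ∀ r ∈ R, (d : G) * r * (d : G)⁻¹ * r⁻¹ ∈ kr ρ) → N = ⊥)
    (hw : ∃ g ∈ M, g * z * g⁻¹ ∈ R ∧ g * z * g⁻¹ * z⁻¹ ∉ kr ρ) :
    ∃ _ : ((im ρ R).subgroupOf C1[ρ ⟨z, hzM⟩]).Normal,
      IsExtraspecialCentralizerSetting (ρ ⟨z, hzM⟩) ((im ρ R).subgroupOf C1[ρ ⟨z, hzM⟩]) w ∧
      (∀ c : C1[ρ ⟨z, hzM⟩], ∃ d : D, ρ ⟨d, hDM d.2⟩ = c) ∧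
      ∃ e : C1[ρ ⟨z, hzM⟩] ⧸ (im ρ R).subgroupOf C1[ρ ⟨z, hzM⟩] ≃* L,
        ∀ (d : D) (c : C1[ρ ⟨z, hzM⟩]), ρ ⟨d, hDM d.2⟩ = c → e (QuotientGroup.mk c) = θ d := by
  let φ : D →* C1[ρ ⟨z, hzM⟩] := (ρ.comp (inclusion hDM)).codRestrict _ fun d => mem_cent1.2 (by
    rw [MonoidHom.comp_apply, ← map_mul, ← map_mul]
    exact congrArg ρ (Subtype.ext (mem_cent1.1 (hD d.2))))
  have hφ : Function.Surjective φ := fun c => by
    obtain ⟨m, hm⟩ := hρ c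
    exact ⟨⟨m, hC m (hm ▸ mem_cent1.1 c.2)⟩, Subtype.ext hm⟩
  have hle : φ.ker ≤ θ.ker := fun d hd => (mem_kr' d.2).1 (hk ▸ mem_sup_right
    ((mem_kr' (hDM d.2)).2 (congrArg Subtype.val hd)))
  let θ' := φ.liftOfSurjective hφ ⟨θ, hle⟩
  have e : ∀ d, θ' (φ d) = θ d := fun d => φ.liftOfRightInverse_comp_apply _ _ _ d
  obtain ⟨hn, h1, e', he'⟩ := setting_of hE hc θ' (fun y => let ⟨d, hd⟩ := hθ y; ⟨φ d, (e d).trans hd⟩)
    (by
      ext y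
      rw [mem_kr]
      constructor
      · rintro ⟨hy, h⟩
        obtain ⟨d, hd⟩ := hφ ⟨y, hy⟩
        rw [← hd, e, ← mem_kr' d.2, hk, ← mem_im_iff_mem_sup (hDM d.2) (hRD.trans hDM)] at h
        have h3 : ρ ⟨d, hDM d.2⟩ = y := congrArg Subtype.val hd
        exact h3 ▸ h
      · intro hy
        obtain ⟨r, hr, h, rfl⟩ := mem_im.1 hy
        exact ⟨(φ ⟨r, hRD h⟩).2, (e ⟨r, hRD h⟩).trans ((mem_kr' _).1 (hk ▸ mem_sup_left h))⟩) hO
    (fun N hN h => hf N hN fun y hy => by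
      obtain ⟨x, hx, h1, rfl⟩ := mem_im.1 (h hy)
      obtain ⟨d, hd⟩ := hφ ⟨x, hx⟩
      refine ⟨d, by rw [← hd, e], fun r hr => ?_⟩
      have hr' := hDM (hRD hr)
      refine mem_kr.2 ⟨mul_mem (mul_mem (mul_mem (hDM d.2) hr') (inv_mem (hDM d.2))) (inv_mem hr'), ?_⟩
      have h2 := h1 _ (mem_im_of_mem hr' hr)
      have h3 : ρ ⟨d, hDM d.2⟩ = x := congrArg Subtype.val hd
      change ρ (⟨d, hDM d.2⟩ * ⟨r, hr'⟩ * ⟨d, hDM d.2⟩⁻¹ * ⟨r, hr'⟩⁻¹) = 1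
      rw [map_mul, map_mul, map_mul, map_inv, map_inv, h3, ← h2]; group)
    (by
      obtain ⟨g, hg, h1, h2⟩ := hw
      have e : ρ ⟨g, hg⟩ * ρ ⟨z, hzM⟩ * (ρ ⟨g, hg⟩)⁻¹ = ρ ⟨_, hDM (hRD h1)⟩ := by
        rw [← map_mul, ← map_inv, ← map_mul]; rfl
      refine ⟨ρ ⟨g, hg⟩, e ▸ mem_im_of_mem _ h1, fun h => h2 (mem_kr.2
        ⟨mul_mem (hDM (hRD h1)) (inv_mem hzM), ?_⟩)⟩
      change ρ (⟨_, hDM (hRD h1)⟩ * ⟨z, hzM⟩⁻¹) = 1
      rw [map_mul, map_inv, ← e, h, mul_inv_cancel])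
  exact ⟨hn, h1, fun c => let ⟨d, hd⟩ := hφ c; ⟨d, congrArg Subtype.val hd⟩, e', fun d c h => by
    rw [he', ← e, show c = φ d from Subtype.ext h.symm]⟩

end Cfsg.Agent.Leech
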