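import Cfsg.Agent.Leech.Fix
import Cfsg.Agent.M24.Cent

/-! # More certificates: permutation chains, separation of labels, covering of fixed classes -/

set_option autoImplicit false

namespace Cfsg.Agent.Leech

open Cfsg.Spor Cfsg.Agent.GT Subgroup Cfsg.Agent.M24 MulAction
open scoped Pointwise symmDiff

/-- Stabiliser chain check for permutations of `n` points. -/
noncomputable def chkG (w mk n : ℕ) (Ls : List Lvl) : Bool :=
  band (band (lall (gensOf Ls) (isPermG w mk n)) (Ls.all fun L => decide (L.b < n)))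
    (force (oneG w n) fun e => chainChk (mulG w mk n) (invG w mk n) e (apw w mk) n Ls)

theorem chkG_sound {α : Type*} {w mk n : ℕ} (E : Enc α n) (hmk : mk = 2 ^ w - 1) (hn : n ≤ 2 ^ w)
    {Ls : List Lvl} (h : chkG w mk n Ls = true) :
    Valid (E.code w) (gensOf Ls) ∧ Nat.card (gen (E.code w) (gensOf Ls)) = chainSize Ls ∧
      ∀ g, g ∈ gen (E.code w) (gensOf Ls) ↔
        sift (mulG w mk n) (oneG w n) (apw w mk) Ls (E.code w g) = true := by
  simp only [chkG, band_eq, Bool.and_eq_true, force_eq, List.all_eq_true, decide_eq_true_iff] at h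
  have hv := E.valid_of_isPerm h.1.1
  obtain ⟨h1, -, h2⟩ := chain_sound (E.gc hmk hn) (E.ac hmk hn)
    (fun L hL => ⟨E.pt L.b, trivial, E.idx_pt _ (h.1.2 L hL)⟩) h.2 hv
  exact ⟨hv, h1.card, h2⟩

theorem sep_pt {α : Type*} {n : ℕ} (E : Enc α n) {t : T}
    (h : (nall n fun i => !t.all fun _ a _ => !Nat.beq a i) = true) (σ : Equiv.Perm α)
    (hσ : ∀ y, (∃ k b, (k, E.idx y, b) ∈ t.ents) → σ • y = y) : σ = 1 := by
  refine Equiv.ext fun y => hσ y ?_
  have := (nall_iff _ _).1 h _ (E.idx_lt y)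
  rw [Bool.not_eq_true', ← Bool.not_eq_true, T.all_iff] at this
  push Not at this
  obtain ⟨k, a, b, h1, h2⟩ := this
  exact ⟨k, b, by rwa [show a = E.idx y by simpa using h2] at h1⟩

/-- Intersection of `m` with the labels containing `i`. -/
noncomputable def andAt (t : T) (i m : ℕ) : ℕ :=
  T.rec (motive := fun _ => ℕ → ℕ) (fun m => m) (fun _ _ a _ _ l r m => force (l m) fun m' =>
    force (bif' (Nat.beq (Nat.land (Nat.shiftRight a i) (nat_lit 1)) (nat_lit 1)) (Nat.land m' a) m') r)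
    t m

theorem testBit_andAt {t : T} {i j m : ℕ} (hm : m.testBit j = true)
    (h : ∀ k a b, (k, a, b) ∈ t.ents → a.testBit i = true → a.testBit j = true) :
    (andAt t i m).testBit j = true := by
  induction t generalizing m with
  | nil => exact hm
  | node l k a b r ih1 ih2 =>
    have e : andAt (.node l k a b r) i m = andAt r i (if a.testBit i = true then andAt l i m &&& a
        else andAt l i m) := by
      change force (andAt l i m) (fun m' => force (bif' (Nat.beq (Nat.land (Nat.shiftRight a i) 1) 1)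
        (Nat.land m' a) m') (andAt r i)) = _
      rw [force_eq, force_eq, bif'_eq]
      refine congrArg _ (if_congr (Nat.beq_eq.to_iff.trans ?_) rfl rfl)
      change (a >>> i) &&& 1 = 1 ↔ _
      rw [bit_eq]; split_ifs with h <;> simp [h]
    have h1 := ih1 hm fun k' a' b' h' => h k' a' b' (by simp [T.ents, h'])
    rw [e]
    refine ih2 ?_ fun k' a' b' h' => h k' a' b' (by simp [T.ents, h'])
    split_ifs with h2
    · rw [Nat.testBit_and, h1, h k a b (by simp [T.ents]) h2]; rfl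
    · exact h1

theorem sep_set {α : Type*} [DecidableEq α] [Fintype α] {n : ℕ} (E : Enc α n) {t : T}
    (h : band (t.all fun _ a _ => Nat.ble (Nat.succ a) (2 ^ n))
      (nall n fun i => Nat.beq (andAt t i (2 ^ n - 1)) (2 ^ i)) = true) (σ : Equiv.Perm α)
    (hσ : ∀ y : Finset α, (∃ k b, (k, E.mask y, b) ∈ t.ents) → σ • y = y) : σ = 1 := by
  simp only [band_eq, Bool.and_eq_true, T.all_iff, nall_iff, Nat.beq_eq, Nat.ble_eq] at h
  refine Equiv.ext fun x => E.idx_inj ?_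
  have := testBit_andAt (t := t) (i := E.idx x) (j := E.idx (σ x)) (m := 2 ^ n - 1)
    (by simp [Nat.testBit_two_pow_sub_one, E.idx_lt]) fun k a b h1 h2 => by
      have h3 := E.mask_unmask (h.1 k a b h1)
      rw [← E.mem_unmask, ← hσ (E.unmask a) ⟨k, b, by rwa [h3]⟩]
      exact Finset.smul_mem_smul_finset (E.mem_unmask.2 h2)
  rw [h.2 _ (E.idx_lt x), Nat.testBit_two_pow, decide_eq_true_iff] at this
  exact this.symm

theorem cover {y : Co0} {d F : ℕ} (hF : ∀ x : Lt, y • x = x ↔ ∃ m < 2 ^ d, cdx x = apn d F m)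
    {f : ℕ → Bool} (h : ball (fun m => force (apn d F m) f) d 0 = true) {x : Lt} (hx : y • x = x) :
    f (cdx x) = true := by
  obtain ⟨m, hm, e⟩ := (hF x).1 hx
  have := ball_zero h m hm
  rwa [force_eq, ← e] at this

theorem orbit_fix {y : M24} {x : Lt} (hx : x ∈ orbit C1[prm y] x8) :
    prm y • x = x ∧ x ∈ orbit Co0 x8 := by
  obtain ⟨c, rfl⟩ := hx
  refine ⟨?_, c.1, rfl⟩
  change prm y • c.1 • x8 = c.1 • x8
  rw [← mul_smul, ← mem_cent1.1 c.2, mul_smul,
    show prm y • x8 = x8 from stab_x8.ge (prm_mem_Nm y)]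

theorem keys_ok {t : T} : ∀ k < 2 ^ 24, k ∈ t.keys → ∃ x, cdx x = k := fun _ h _ => ⟨_, cdx_unx h⟩

theorem odd_prm {y : M24} {p : ℕ} (h : orderOf y = p) (hp : Odd p) : Odd (orderOf (prm y)) := by
  rwa [orderOf_injective prm prm_injective, h]

theorem has_of_all {t t' : T} {hi : ℕ} (hs : t.srt 0 hi = true)
    (h : (t.all fun k _ _ => t'.has k) = true) {k : ℕ} (hk : t.has k = true) : t'.has k = true :=
  let ⟨_, _, e⟩ := T.mem_keys.1 ((T.has_iff hs).1 hk); (T.all_iff _ _).1 h _ _ _ e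

/-- Everything about the centralizer of `prm y` that is needed upstairs. -/
def Good (y : M24) (L : Type*) [Group L] (w n : ℕ) : Prop :=
  ∃ θ : C1[prm y] →* L, Function.Surjective θ ∧ (∀ g, θ g = 1 ↔ pj g ∈ zpowers (pj (prm y))) ∧
    Odd (orbit C1[prm y] x8).ncard ∧ (∀ g : C1[prm y], (∀ x ∈ orbit C1[prm y] x8, g • x = x) → θ g = 1) ∧
    {x : Lt | prm y • x = x}.ncard = 2 ^ (2 * w) ∧ {x : Lt | prm y • x = x ∧ x ∈ orbit Co0 x8}.ncard = n

theorem Good.setting {G L : Type*} [Group G] [Finite G] [Group L] {Q B : Subgroup G} {z b s : G}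
    {Ψ : Lv → G → Prop} {π : C1[z] →* Co1} {y : M24} {w n p : ℕ} (h : Good y L w n) (M : MT Q z Ψ π)
    (a : Ψ (e8 none) s) (hp : p.Prime) (h2 : Odd p) (hy : orderOf y = p) (hB : Nat.card B = p)
    (hb : b ∈ B) (hs : B ≤ C1[s]) (l : Lf π b (prm y)) [(B.subgroupOf C[B]).Normal] :
    ∃ (z' : C[B] ⧸ B.subgroupOf C[B]) (Q' : Subgroup C1[z']) (_ : Q'.Normal),
      IsExtraspecialCentralizerSetting z' Q' w ∧ Nonempty (C1[z'] ⧸ Q' ≃* L) ∧
      {x : C1[z'] | x ∈ Q' ∧ IsConj z' (x : C[B] ⧸ B.subgroupOf C[B])}.ncard = 1 + 2 * n := by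
  obtain ⟨θ, h1, h3, h4, h5, h6, rfl⟩ := h
  have b1 : b ≠ 1 := by
    rintro rfl
    rw [pj_prm_inj ((l.pj_eq Lf.one).trans (by simp) : pj.comp prm y = pj.comp prm 1),
      orderOf_one] at hy
    exact hp.one_lt.ne hy
  have e1 := eq_zpowers_of_card_prime (hB ▸ hp) hb b1
  have e2 := cent_eq_cent1_of_card_prime (hB ▸ hp) hb b1
  exact M.odd_setting a (hs hb) l (by rwa [← Nat.card_zpowers, ← e1, hB]) (odd_prm hy h2) θ h1 h3 h4
    h5 h6 ((QuotientGroup.mk' _).comp (MulEquiv.subgroupCongr e2.symm).toMonoidHom)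
    ((QuotientGroup.mk'_surjective _).comp (MulEquiv.surjective _)) (by
      ext x
      rw [mem_kr, ← e1]
      exact ⟨fun ⟨hx, h⟩ => (QuotientGroup.eq_one_iff (N := B.subgroupOf C[B]) ⟨x, e2.ge hx⟩).1 h,
        fun h => have hx : x ∈ C1[b] := zpowers_le.2 (self_mem_cent1 b) (e1.le h)
          ⟨hx, (QuotientGroup.eq_one_iff (N := B.subgroupOf C[B]) ⟨x, e2.ge hx⟩).2 h⟩⟩)

theorem cent_pair {G : Type*} [Group G] (z s : G) :
    centralizer ({z, s} : Set G) = C1[z] ⊓ C1[s] := by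
  ext x; simp [mem_centralizer_iff]

/-- Normal form of the hypotheses of the statements. -/
theorem start {G : Type*} [Group G] [Finite G] {z s : G} {Q : Subgroup C1[z]} [Q.Normal]
    (hM : IsOfMonsterType z Q) (hsQ : ∃ h : s ∈ C1[z], (⟨s, h⟩ : C1[z]) ∈ Q) (hs : IsConj z s)
    (hs1 : s ≠ z) : ∃ Q' Ψ π, MT Q' z Ψ π ∧ Ψ (e8 none) s := by
  obtain ⟨e, ψ, hψ⟩ := hM.2
  have M := MT.of_iso hM hψ
  obtain ⟨v, hv⟩ := M.surj s ⟨_, hsQ.2, rfl⟩
  obtain ⟨Ψ, π, M', a⟩ := M.exists_twist hv ((M.conj_z_iff hv).1 ⟨hs, hs1⟩)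
  exact ⟨_, Ψ, π, M', a⟩

end Cfsg.Agent.Leech
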