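import Cfsg.Agent.M24.Dod
import Cfsg.Prelude.Def_Spor_Conway

/-! # The Leech lattice: membership, norms, congruences modulo twice the lattice -/

set_option autoImplicit false

namespace Cfsg.Agent.Leech

open Finset Cfsg.Agent.M24
open scoped symmDiff

/-- Indicator vector of a set of points. -/
def chi (c : Finset GolayPt) : GolayPt → ℤ := fun i => if i ∈ c then 1 else 0

theorem sum_chi (c : Finset GolayPt) : ∑ i, chi c i = c.card := by simp [chi]

theorem chi_symmDiff (c d : Finset GolayPt) (i : GolayPt) :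
    chi (c ∆ d) i = chi c i + chi d i - 2 * chi (c ∩ d) i := by
  simp only [chi, mem_symmDiff, mem_inter]
  by_cases h1 : i ∈ c <;> by_cases h2 : i ∈ d <;> simp [h1, h2]

theorem chi_mul_self (c : Finset GolayPt) (i : GolayPt) : chi c i * chi c i = chi c i := by
  simp only [chi]; split_ifs <;> simp

theorem chi_empty : chi ∅ = 0 := by funext i; simp [chi]
theorem chi_univ (i : GolayPt) : chi univ i = 1 := by simp [chi]

/-- Normal form of lattice vectors. -/
def IsL (x : GolayPt → ℤ) : Prop :=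
  ∃ (m : ℤ) (c : Finset GolayPt) (y : GolayPt → ℤ), IsCw c ∧ Even (∑ i, y i - m) ∧
    ∀ i, x i = m + 2 * chi c i + 4 * y i

theorem sum_const_pt (m : ℤ) : ∑ _i : GolayPt, m = 24 * m := by
  rw [sum_const, card_univ, card_golayPt]; simp

theorem isL_iff {x : GolayPt → ℤ} : IsL x ↔ x ∈ leechSet := by
  constructor
  · rintro ⟨m, c, y, hc, ⟨t, ht⟩, e⟩
    refine ⟨m, fun i => ?_, ?_, fun k => ?_⟩
    · rw [e i, Int.ModEq]; omega
    · obtain ⟨n, hn⟩ := hc.four_dvd
      simp only [e, sum_add_distrib, ← mul_sum, sum_chi, sum_const_pt, hn, Int.ModEq]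
      push_cast; omega
    · have h4 : (k - m) % 4 = 0 ∨ (k - m) % 4 = 2 ∨ (k - m) % 2 = 1 := by omega
      change IsCw _
      rcases h4 with h | h | h
      · convert hc.compl using 1
        ext i
        rw [mem_filter, mem_sdiff, e i, chi, Int.ModEq]
        by_cases hi : i ∈ c <;> simp only [hi, mem_univ, true_and, if_true, if_false, not_true,
          not_false_iff, iff_true, iff_false] <;> omega
      · convert hc using 1
        ext i
        rw [mem_filter, e i, chi, Int.ModEq]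
        by_cases hi : i ∈ c <;> simp only [hi, mem_univ, true_and, if_true, if_false,
          iff_true, iff_false] <;> omega
      · convert isCw_empty using 1
        refine filter_false_of_mem fun i _ => ?_
        rw [e i, Int.ModEq]; omega
  · rintro ⟨m, h1, h2, h3⟩
    have hc : IsCw _ := h3 (m + 2)
    set c := univ.filter fun i => x i ≡ m + 2 [ZMOD 4]
    have hi : ∀ i, i ∈ c ↔ x i % 4 = (m + 2) % 4 := fun i => mem_filter.trans (and_iff_right (mem_univ _))
    have e : ∀ i, x i = m + 2 * chi c i + 4 * ((x i - m - 2 * chi c i) / 4) := fun i => by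
      have := h1 i
      rw [Int.ModEq] at this
      unfold chi
      split_ifs with h <;> rw [hi] at h <;> omega
    refine ⟨m, c, _, hc, ?_, e⟩
    obtain ⟨n, hn⟩ := hc.four_dvd
    rw [sum_congr rfl fun i _ => e i] at h2
    simp only [sum_add_distrib, ← mul_sum, sum_chi, sum_const_pt, hn, Int.ModEq] at h2
    push_cast at h2
    rw [Int.even_iff]; omega

theorem IsL.add {x x' : GolayPt → ℤ} (h : IsL x) (h' : IsL x') : IsL (x + x') := by
  obtain ⟨m, c, y, hc, hy, e⟩ := h
  obtain ⟨m', c', y', hc', hy', e'⟩ := h'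
  refine ⟨m + m', c ∆ c', fun i => y i + y' i + chi (c ∩ c') i, hc.symmDiff hc', ?_, fun i => ?_⟩
  · obtain ⟨n, hn⟩ := hc.even_inter hc'
    simp only [sum_add_distrib, sum_chi, hn, Int.even_iff] at *
    push_cast; omega
  · rw [Pi.add_apply, e, e', chi_symmDiff]; ring

theorem IsL.neg {x : GolayPt → ℤ} (h : IsL x) : IsL (-x) := by
  obtain ⟨m, c, y, hc, hy, e⟩ := h
  refine ⟨-m, c, fun i => -y i - chi c i, hc, ?_, fun i => ?_⟩
  · obtain ⟨n, hn⟩ := hc.four_dvd
    simp only [sum_sub_distrib, sum_neg_distrib, sum_chi, hn, Int.even_iff] at *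
    push_cast; omega
  · rw [Pi.neg_apply, e]; ring

theorem isL_zero : IsL 0 := ⟨0, ∅, 0, isCw_empty, by simp, fun i => by simp [chi]⟩

theorem mem_iff {x : GolayPt → ℤ} : x ∈ leechLattice ↔ IsL x := by
  refine ⟨fun h => ?_, fun h => AddSubgroup.subset_closure (isL_iff.1 h)⟩
  induction h using AddSubgroup.closure_induction with
  | mem x hx => exact isL_iff.2 hx
  | zero => exact isL_zero
  | add x y _ _ hx hy => exact hx.add hy
  | neg x _ hx => exact hx.neg

theorem isCw_mod_four {x : GolayPt → ℤ} (hx : x ∈ leechLattice) (k : ℤ) :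
    IsCw (univ.filter fun i => x i % 4 = k % 4) :=
  (isL_iff.1 (mem_iff.1 hx)).choose_spec.2.2 k

/-- Normal form with `m = 0` or `m = 1`. -/
theorem exists_form {x : GolayPt → ℤ} (hx : x ∈ leechLattice) :
    ∃ (m : ℤ) (c : Finset GolayPt) (y : GolayPt → ℤ), (m = 0 ∨ m = 1) ∧ IsCw c ∧
      Even (∑ i, y i - m) ∧ ∀ i, x i = m + 2 * chi c i + 4 * y i := by
  obtain ⟨m, h1, h2, h3⟩ := isL_iff.1 (mem_iff.1 hx)
  have hc : IsCw _ := h3 (m % 2 + 2)
  set c := univ.filter fun i => x i ≡ m % 2 + 2 [ZMOD 4]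
  have hi : ∀ i, i ∈ c ↔ x i % 4 = (m % 2 + 2) % 4 := fun i =>
    mem_filter.trans (and_iff_right (mem_univ _))
  have e : ∀ i, x i = m % 2 + 2 * chi c i + 4 * ((x i - m % 2 - 2 * chi c i) / 4) := fun i => by
    have := h1 i
    rw [Int.ModEq] at this
    unfold chi
    split_ifs with h <;> rw [hi] at h <;> omega
  refine ⟨m % 2, c, _, by omega, hc, ?_, e⟩
  obtain ⟨n, hn⟩ := hc.four_dvd
  rw [sum_congr rfl fun i _ => e i] at h2
  simp only [sum_add_distrib, ← mul_sum, sum_chi, sum_const_pt, hn, Int.ModEq] at h2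
  push_cast at h2
  rw [Int.even_iff]; omega

theorem mem_of_form {x : GolayPt → ℤ} (m : ℤ) {c : Finset GolayPt} (y : GolayPt → ℤ) (hc : IsCw c)
    (hy : Even (∑ i, y i - m)) (e : ∀ i, x i = m + 2 * chi c i + 4 * y i) : x ∈ leechLattice :=
  mem_iff.2 ⟨m, c, y, hc, hy, e⟩

theorem four_mul_mem {y : GolayPt → ℤ} (hy : Even (∑ i, y i)) : (fun i => 4 * y i) ∈ leechLattice :=
  mem_of_form 0 y isCw_empty (by simpa) fun i => by simp [chi]

theorem two_chi_mem {c : Finset GolayPt} (hc : IsCw c) : (fun i => 2 * chi c i) ∈ leechLattice :=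
  mem_of_form 0 0 hc (by simp) fun i => by simp

theorem eight_mul_mem (y : GolayPt → ℤ) : (fun i => 8 * y i) ∈ leechLattice := by
  have := four_mul_mem (y := fun i => 2 * y i) (by rw [← mul_sum]; exact even_two_mul _)
  convert this using 2; ring

/-! ### Norms -/

theorem sqNorm_nonneg (x : GolayPt → ℤ) : 0 ≤ sqNorm x := sum_nonneg fun _ _ => sq_nonneg _

theorem sq_le_sqNorm (x : GolayPt → ℤ) (i : GolayPt) : x i ^ 2 ≤ sqNorm x :=
  single_le_sum (f := fun i => x i ^ 2) (fun _ _ => sq_nonneg _) (mem_univ i)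

theorem sqNorm_eq_zero {x : GolayPt → ℤ} (h : sqNorm x = 0) : x = 0 := funext fun i => by
  have := sq_le_sqNorm x i
  rw [h] at this
  exact pow_eq_zero_iff two_ne_zero |>.1 (le_antisymm this (sq_nonneg _))

theorem sqNorm_add (x y : GolayPt → ℤ) : sqNorm (x + y) = sqNorm x + 2 * dotInt x y + sqNorm y := by
  simp only [sqNorm, dotInt, Pi.add_apply, mul_sum, ← sum_add_distrib]
  exact sum_congr rfl fun i _ => by ring

theorem sqNorm_sub (x y : GolayPt → ℤ) : sqNorm (x - y) = sqNorm x - 2 * dotInt x y + sqNorm y := by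
  simp only [sqNorm, dotInt, Pi.sub_apply, mul_sum, ← sum_add_distrib, ← sum_sub_distrib]
  exact sum_congr rfl fun i _ => by ring

theorem sqNorm_neg (x : GolayPt → ℤ) : sqNorm (-x) = sqNorm x := by simp [sqNorm]

theorem sqNorm_zsmul (n : ℤ) (x : GolayPt → ℤ) : sqNorm (n • x) = n ^ 2 * sqNorm x := by
  simp only [sqNorm, mul_sum, Pi.smul_apply, smul_eq_mul, mul_pow]

theorem sqNorm_two (x : GolayPt → ℤ) : sqNorm (2 • x) = 4 * sqNorm x := by
  rw [two_smul, ← two_smul ℤ, sqNorm_zsmul]; norm_num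

theorem sqNorm_zero : sqNorm (0 : GolayPt → ℤ) = 0 := by simp [sqNorm]

theorem dot_self (x : GolayPt → ℤ) : dotInt x x = sqNorm x := by simp [sqNorm, dotInt, sq]

theorem dot_comm (x y : GolayPt → ℤ) : dotInt x y = dotInt y x := by simp [dotInt, mul_comm]

theorem dot_add (x y z : GolayPt → ℤ) : dotInt x (y + z) = dotInt x y + dotInt x z := by
  simp [dotInt, mul_add, sum_add_distrib]

theorem add_dot (x y z : GolayPt → ℤ) : dotInt (x + y) z = dotInt x z + dotInt y z := by
  simp [dotInt, add_mul, sum_add_distrib]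

theorem dot_neg (x y : GolayPt → ℤ) : dotInt x (-y) = -dotInt x y := by simp [dotInt]

theorem neg_dot (x y : GolayPt → ℤ) : dotInt (-x) y = -dotInt x y := by simp [dotInt]

theorem even_sum_sq_sub (y : GolayPt → ℤ) : Even (∑ i, y i ^ 2 - ∑ i, y i) := by
  rw [← sum_sub_distrib]
  exact even_sum _ fun i _ => by
    rw [show y i ^ 2 - y i = (y i - 1) * (y i - 1 + 1) by ring]; exact Int.even_mul_succ_self _

theorem sqNorm_form {x y : GolayPt → ℤ} {m : ℤ} {c : Finset GolayPt}
    (e : ∀ i, x i = m + 2 * chi c i + 4 * y i) : sqNorm x = 24 * m ^ 2 + 4 * (1 + m) * c.card +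
      8 * m * ∑ i, y i + 16 * (∑ i, y i ^ 2 + ∑ i, chi c i * y i) := by
  simp only [sqNorm, ← sum_chi, ← sum_const_pt, mul_sum, ← sum_add_distrib]
  exact sum_congr rfl fun i _ => by rw [e i]; linear_combination 4 * chi_mul_self c i

theorem sixteen_dvd {x : GolayPt → ℤ} (hx : x ∈ leechLattice) : 16 ∣ sqNorm x := by
  obtain ⟨m, c, y, hm, hc, ⟨t, ht⟩, e⟩ := exists_form hx
  obtain ⟨n, hn⟩ := hc.four_dvd
  rw [sqNorm_form e, hn]
  rcases hm with rfl | rfl <;> push_cast <;> omega

theorem eight_dvd_dot {x y : GolayPt → ℤ} (hx : x ∈ leechLattice) (hy : y ∈ leechLattice) :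
    8 ∣ dotInt x y := by
  have h1 := sixteen_dvd hx
  have h2 := sixteen_dvd hy
  have h3 := sixteen_dvd (leechLattice.add_mem hx hy)
  rw [sqNorm_add] at h3
  omega

theorem min_norm {x : GolayPt → ℤ} (hx : x ∈ leechLattice) (h0 : x ≠ 0) : 32 ≤ sqNorm x := by
  have h1 := sixteen_dvd hx
  have h2 : sqNorm x ≠ 0 := fun h => h0 (sqNorm_eq_zero h)
  have h3 := sqNorm_nonneg x
  obtain ⟨m, c, y, hm, hc, hy, e⟩ := exists_form hx
  rcases hm with rfl | rfl
  · by_cases h : c = ∅
    · have := even_sum_sq_sub y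
      have h5 := sqNorm_form e
      rw [h, chi_empty] at h5
      simp only [Int.even_iff, Pi.zero_apply, zero_mul, sum_const_zero, card_empty] at h5 this hy
      push_cast at h5
      omega
    · have h8 : 8 ≤ c.card := by by_contra h'; exact h (hc.eq_empty (by omega))
      have : ∑ i, 4 * chi c i ≤ sqNorm x := sum_le_sum fun i _ => by
        rw [e i, chi]; split_ifs
        · have : 0 ≤ y i * (y i + 1) := by
            rcases le_or_gt 0 (y i) with h | h <;> nlinarith
          nlinarith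
        · positivity
      rw [← mul_sum, sum_chi] at this
      omega
  · have : ∑ _i : GolayPt, (1 : ℤ) ≤ sqNorm x := sum_le_sum fun i _ => by
      have : x i ≠ 0 := by rw [e i]; omega
      exact (one_le_sq_iff_one_le_abs _).2 (Int.one_le_abs this)
    rw [sum_const_pt] at this
    omega

theorem finite_norm (n : ℤ) : {x : GolayPt → ℤ | sqNorm x = n}.Finite := by
  refine (Set.Finite.pi' fun _ => Set.finite_Icc (-n) n).subset fun x hx i => ?_
  have := sq_le_sqNorm x i
  rw [show sqNorm x = n from hx] at this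
  constructor <;> nlinarith [sq_nonneg (x i + 1), sq_nonneg (x i - 1), sq_nonneg (x i)]

/-! ### Congruence modulo twice the lattice -/

/-- Congruence modulo twice the lattice. -/
def Cong (x y : GolayPt → ℤ) : Prop := ∃ z ∈ leechLattice, x - y = 2 • z

theorem Cong.refl (x : GolayPt → ℤ) : Cong x x := ⟨0, zero_mem _, by simp⟩
theorem Cong.symm {x y : GolayPt → ℤ} (h : Cong x y) : Cong y x :=
  let ⟨z, hz, e⟩ := h; ⟨-z, neg_mem hz, by rw [smul_neg, ← e, neg_sub]⟩
theorem Cong.trans {x y w : GolayPt → ℤ} (h : Cong x y) (h' : Cong y w) : Cong x w :=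
  let ⟨z, hz, e⟩ := h; let ⟨z', hz', e'⟩ := h'
  ⟨z + z', add_mem hz hz', by rw [smul_add, ← e, ← e', sub_add_sub_cancel]⟩
theorem Cong.add {x y x' y' : GolayPt → ℤ} (h : Cong x y) (h' : Cong x' y') :
    Cong (x + x') (y + y') :=
  let ⟨z, hz, e⟩ := h; let ⟨z', hz', e'⟩ := h'
  ⟨z + z', add_mem hz hz', by rw [smul_add, ← e, ← e']; abel⟩
theorem cong_neg {x : GolayPt → ℤ} (hx : x ∈ leechLattice) : Cong (-x) x :=
  ⟨-x, neg_mem hx, by rw [two_smul]; abel⟩
theorem cong_of {x y z : GolayPt → ℤ} (hz : z ∈ leechLattice) (e : ∀ i, x i = y i + 2 * z i) :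
    Cong x y := ⟨z, hz, funext fun i => by simp [e i]⟩

theorem short_cong {x y : GolayPt → ℤ} (hy : y ∈ leechLattice) (hxn : sqNorm x ≤ 64)
    (hyn : sqNorm y ≤ 64) (hc : Cong x y) :
    x = y ∨ x = -y ∨ (sqNorm x = 64 ∧ sqNorm y = 64 ∧ dotInt x y = 0) := by
  obtain ⟨z, hz, e⟩ := hc
  by_cases h1 : z = 0
  · left; rwa [h1, smul_zero, sub_eq_zero] at e
  have e' : x + y = 2 • (z + y) := by rw [smul_add, ← e, two_smul]; abel
  by_cases h2 : z + y = 0
  · right; left; rwa [h2, smul_zero, add_eq_zero_iff_eq_neg] at e'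
  have h3 := min_norm hz h1
  have h4 := min_norm (add_mem hz hy) h2
  have h5 := sqNorm_sub x y
  have h6 := sqNorm_add x y
  rw [e, sqNorm_two] at h5
  rw [e', sqNorm_two] at h6
  omega

theorem Cong.norm_eq {x y : GolayPt → ℤ} (hc : Cong x y) (hy : y ∈ leechLattice)
    (hxn : sqNorm x ≤ 64) (hyn : sqNorm y ≤ 64) : sqNorm x = sqNorm y := by
  rcases short_cong hy hxn hyn hc with rfl | rfl | h
  · rfl
  · exact sqNorm_neg y
  · omega

theorem Cong.norm_mod {x y : GolayPt → ℤ} (hc : Cong x y) (hy : y ∈ leechLattice) :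
    32 ∣ sqNorm x - sqNorm y := by
  obtain ⟨z, hz, e⟩ := hc
  rw [sub_eq_iff_eq_add'] at e
  have h1 := sixteen_dvd hz
  have h2 := eight_dvd_dot hy hz
  rw [e, sqNorm_add, sqNorm_two, two_smul, dot_add]
  omega

theorem Cong.dot_mod {x y w : GolayPt → ℤ} (hc : Cong x y) (hw : w ∈ leechLattice) :
    16 ∣ dotInt x w - dotInt y w := by
  obtain ⟨z, hz, e⟩ := hc
  rw [sub_eq_iff_eq_add'] at e
  have h2 := eight_dvd_dot hz hw
  rw [e, two_smul, add_dot, add_dot]
  omega

end Cfsg.Agent.Leech
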