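import Cfsg.Agent.Leech.Basic

/-! # Elements of the automorphism group of the Leech lattice -/

set_option autoImplicit false

namespace Cfsg.Agent.Leech

open Finset Cfsg.Agent.M24
open scoped symmDiff Pointwise

/-- Lattice vectors. -/
abbrev Lv : Type := ↥leechLattice

instance distribCo0 : DistribMulAction Co0 Lv where
  __ := (inferInstance : MulAction Co0 Lv)
  smul_add g := g.2.1
  smul_zero g := by
    have h : g • (0 + 0 : Lv) = g • (0 : Lv) + g • (0 : Lv) := g.2.1 0 0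
    rw [add_zero] at h
    exact left_eq_add.1 h

theorem norm_smul (g : Co0) (v : Lv) : sqNorm (g • v).1 = sqNorm v.1 := g.2.2 v

theorem dot_smul (g : Co0) (v w : Lv) : dotInt (g • v).1 (g • w).1 = dotInt v.1 w.1 := by
  have h1 := norm_smul g (v + w)
  rw [smul_add, AddSubgroup.coe_add, AddSubgroup.coe_add, sqNorm_add, sqNorm_add, norm_smul,
    norm_smul] at h1
  omega

theorem smul_zsmul' (g : Co0) (n : ℤ) (v : Lv) : g • (n • v) = n • (g • v) :=
  map_zsmul (DistribSMul.toAddMonoidHom Lv g) n v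

theorem co0_ext {g h : Co0} (e : ∀ v : Lv, g • v = h • v) : g = h := Subtype.ext (Equiv.ext e)

theorem Cong.smul {v w : Lv} (h : Cong v.1 w.1) (g : Co0) : Cong (g • v).1 (g • w).1 := by
  obtain ⟨z, hz, e⟩ := h
  refine ⟨(g • (⟨z, hz⟩ : Lv)).1, (g • (⟨z, hz⟩ : Lv)).2, ?_⟩
  have : v - w = ⟨z, hz⟩ + ⟨z, hz⟩ := Subtype.ext (by rw [AddSubgroup.coe_sub, e, two_smul]; rfl)
  rw [← AddSubgroup.coe_sub, ← smul_sub, this, smul_add, two_smul]; rfl

theorem cong_smul_iff {v w : Lv} (g : Co0) : Cong (g • v).1 (g • w).1 ↔ Cong v.1 w.1 :=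
  ⟨fun h => by simpa using h.smul g⁻¹, fun h => h.smul g⟩

/-- An additive isometry of the lattice into itself is an automorphism. -/
noncomputable def mkCo0 (f : Lv →+ Lv) (hf : ∀ v, sqNorm (f v).1 = sqNorm v.1) : Co0 :=
  have hi : Function.Injective f := (injective_iff_map_eq_zero f).2 fun v h =>
    Subtype.ext (sqNorm_eq_zero (by rw [← hf, h]; exact sqNorm_zero))
  ⟨Equiv.ofBijective f ⟨hi, fun w => by
    have hfin : {v : Lv | sqNorm v.1 = sqNorm w.1}.Finite :=
      (finite_norm (sqNorm w.1)).preimage Subtype.val_injective.injOn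
    have hm : Set.MapsTo f {v : Lv | sqNorm v.1 = sqNorm w.1} {v : Lv | sqNorm v.1 = sqNorm w.1} :=
      fun v hv => (hf v).trans hv
    obtain ⟨v, -, hv⟩ := (hfin.injOn_iff_bijOn_of_mapsTo hm).1 hi.injOn |>.surjOn (show w ∈ _ from rfl)
    exact ⟨v, hv⟩⟩, fun v w => map_add f v w, hf⟩

theorem mkCo0_smul (f : Lv →+ Lv) (hf : ∀ v, sqNorm (f v).1 = sqNorm v.1) (v : Lv) :
    mkCo0 f hf • v = f v := rfl

/-! ### The frame vectors -/

/-- The vector `8 eᵢ`. -/
def e8 (i : GolayPt) : Lv := ⟨fun j => 8 * chi {i} j, eight_mul_mem _⟩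

theorem e8_apply (i j : GolayPt) : (e8 i).1 j = if j = i then 8 else 0 := by simp [e8, chi]

theorem dot_e8 (x : GolayPt → ℤ) (i : GolayPt) : dotInt x (e8 i).1 = 8 * x i := by
  simp [dotInt, e8_apply, mul_comm]

theorem norm_e8 (i : GolayPt) : sqNorm (e8 i).1 = 64 := by
  rw [← dot_self, dot_e8, e8_apply]; simp

theorem eight_smul (v : Lv) : (8 : ℤ) • v = ∑ j, v.1 j • e8 j := by
  apply Subtype.ext; funext i
  simp [AddSubmonoidClass.coe_finset_sum, e8_apply, mul_comm, -Fintype.sum_option]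

theorem eight_mul_smul (g : Co0) (v : Lv) (i : GolayPt) :
    8 * (g • v).1 i = ∑ j, (g • e8 j).1 i * v.1 j := by
  have := congrArg (fun w : Lv => (g • w).1 i) (eight_smul v)
  simpa [smul_zsmul', smul_sum, AddSubmonoidClass.coe_finset_sum, mul_comm] using this

theorem ext8 {g h : Co0} (e : ∀ i, g • e8 i = h • e8 i) : g = h :=
  co0_ext fun v => Subtype.ext (funext fun i => by
    have h1 := eight_mul_smul g v i
    have h2 := eight_mul_smul h v i
    simp only [e] at h1
    omega)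

theorem e8_cong (i j : GolayPt) : Cong (e8 i).1 (e8 j).1 :=
  cong_of (four_mul_mem (y := fun k => chi {i} k - chi {j} k) (by simp [sum_chi, -Fintype.sum_option])) fun k => by
    simp only [e8]; ring

/-! ### Sign changes -/

/-- Change the signs on `c`. -/
def sgnF (c : Finset GolayPt) (x : GolayPt → ℤ) : GolayPt → ℤ := fun i => if i ∈ c then -x i else x i

theorem sum_chi_mul (c : Finset GolayPt) (f : GolayPt → ℤ) : ∑ i, chi c i * f i = ∑ i ∈ c, f i := by
  simp [chi]

theorem chi_inter (c d : Finset GolayPt) (i : GolayPt) : chi (c ∩ d) i = chi c i * chi d i := by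
  simp only [chi, mem_inter]
  by_cases h1 : i ∈ c <;> by_cases h2 : i ∈ d <;> simp [h1, h2]

theorem sgnF_mem {c : Finset GolayPt} (hc : IsCw c) {x : GolayPt → ℤ} (hx : x ∈ leechLattice) :
    sgnF c x ∈ leechLattice := by
  obtain ⟨m, d, y, hm, hd, hy, e⟩ := exists_form hx
  rcases hm with rfl | rfl
  · refine mem_of_form 0 (fun i => y i - 2 * (chi c i * y i) - chi (c ∩ d) i) hd ?_ fun i => ?_
    · obtain ⟨n, hn⟩ := hc.even_inter hd
      simp only [sum_sub_distrib, ← mul_sum, sum_chi, hn, Int.even_iff] at hy ⊢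
      push_cast; omega
    · simp only [sgnF, e, chi_inter]; unfold chi; split_ifs <;> ring
  · refine mem_of_form 1 (fun i => y i - 2 * (chi c i * y i) - chi c i) (hd.symmDiff hc) ?_ fun i => ?_
    · obtain ⟨n, hn⟩ := hc.four_dvd
      simp only [sum_sub_distrib, ← mul_sum, sum_chi, hn, Int.even_iff] at hy ⊢
      push_cast; omega
    · simp only [sgnF, e, chi_symmDiff, chi_inter]; unfold chi; split_ifs <;> ring

/-- The sign change on a code word. -/
noncomputable def sgn (c : Finset GolayPt) : Co0 := by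
  classical
  exact if hc : IsCw c then mkCo0 (AddMonoidHom.mk' (fun v => ⟨sgnF c v.1, sgnF_mem hc v.2⟩)
    fun v w => Subtype.ext (funext fun i => by
      simp only [sgnF, AddSubgroup.coe_add, Pi.add_apply]; split_ifs <;> ring))
    (fun v => sum_congr rfl fun i _ => by
      simp only [sgnF, AddMonoidHom.mk'_apply]; split_ifs <;> ring) else 1

theorem sgn_smul {c : Finset GolayPt} (hc : IsCw c) (v : Lv) : (sgn c • v).1 = sgnF c v.1 := by
  rw [sgn, dif_pos hc]; rfl

theorem sgn_apply {c : Finset GolayPt} (hc : IsCw c) (v : Lv) (i : GolayPt) :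
    (sgn c • v).1 i = if i ∈ c then -v.1 i else v.1 i := by rw [sgn_smul hc]; rfl

theorem sgn_symmDiff {c d : Finset GolayPt} (hc : IsCw c) (hd : IsCw d) :
    sgn (c ∆ d) = sgn c * sgn d := co0_ext fun v => Subtype.ext (funext fun i => by
  rw [mul_smul, sgn_apply (hc.symmDiff hd), sgn_apply hc, sgn_apply hd]
  by_cases h1 : i ∈ c <;> by_cases h2 : i ∈ d <;> simp [mem_symmDiff, h1, h2])

theorem sgn_empty : sgn ∅ = 1 := co0_ext fun v => Subtype.ext (funext fun i => by
  rw [sgn_apply isCw_empty]; simp)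

theorem sgn_mul_self (c : Finset GolayPt) : sgn c * sgn c = 1 := by
  by_cases hc : IsCw c
  · rw [← sgn_symmDiff hc hc, symmDiff_self]; exact sgn_empty
  · rw [sgn, dif_neg hc, one_mul]

theorem sgn_inv (c : Finset GolayPt) : (sgn c)⁻¹ = sgn c := inv_eq_of_mul_eq_one_right (sgn_mul_self c)

theorem sgn_comm {c d : Finset GolayPt} (hc : IsCw c) (hd : IsCw d) : sgn c * sgn d = sgn d * sgn c := by
  rw [← sgn_symmDiff hc hd, symmDiff_comm, sgn_symmDiff hd hc]

/-- Negation. -/
noncomputable def ng : Co0 := sgn univ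

theorem ng_smul (v : Lv) : ng • v = -v := Subtype.ext (funext fun i => by
  rw [ng, sgn_apply isCw_univ]; simp)

theorem ng_mul_self : ng * ng = 1 := sgn_mul_self _

theorem ng_comm (g : Co0) : g * ng = ng * g := co0_ext fun v => by
  rw [mul_smul, mul_smul, ng_smul, ng_smul, smul_neg]

theorem sgn_e8 {c : Finset GolayPt} (hc : IsCw c) (i : GolayPt) :
    sgn c • e8 i = if i ∈ c then -e8 i else e8 i := Subtype.ext (funext fun j => by
  rw [sgn_apply hc]
  by_cases h : j = i
  · subst h; split_ifs <;> simp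
  · split_ifs <;> simp [e8_apply, h])

theorem e8_ne_neg (i j : GolayPt) : e8 i ≠ -e8 j := fun h => by
  have := congrArg (fun v : Lv => v.1 i) h
  simp only [e8_apply, AddSubgroup.coe_neg, Pi.neg_apply] at this
  split_ifs at this <;> omega

theorem e8_inj {i j : GolayPt} (h : e8 i = e8 j) : i = j := by
  have := congrArg (fun v : Lv => v.1 i) h
  by_contra h'
  simp [e8_apply, h'] at this

theorem sgn_inj {c d : Finset GolayPt} (hc : IsCw c) (hd : IsCw d) (h : sgn c = sgn d) : c = d := by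
  ext i
  have := sgn_e8 hc i
  rw [h, sgn_e8 hd] at this
  by_cases h1 : i ∈ c <;> by_cases h2 : i ∈ d <;> simp only [h1, h2, if_true, if_false] at this ⊢
  · exact absurd this (e8_ne_neg _ _)
  · exact absurd this.symm (e8_ne_neg _ _)

theorem ng_ne_one : ng ≠ 1 := fun h =>
  e8_ne_neg none none (by rw [← ng_smul, h, one_smul])

/-! ### Coordinate permutations -/

theorem chi_smul (σ : Equiv.Perm GolayPt) (c : Finset GolayPt) (i : GolayPt) :
    chi (σ • c) i = chi c (σ⁻¹ i) := by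
  simp only [chi, ← inv_smul_mem_iff, Equiv.Perm.smul_def]

theorem prmF_mem (σ : M24) {x : GolayPt → ℤ} (hx : x ∈ leechLattice) :
    (fun i => x (σ.1⁻¹ i)) ∈ leechLattice := by
  obtain ⟨m, d, y, hd, hy, e⟩ := mem_iff.1 hx
  refine mem_of_form m (fun i => y (σ.1⁻¹ i)) (hd.smul σ.2) ?_ fun i => by rw [e, chi_smul]
  rwa [Equiv.sum_comp σ.1⁻¹ y]

/-- Coordinate permutations by elements of the Mathieu group. -/
noncomputable def prm : M24 →* Co0 where
  toFun σ := mkCo0 (AddMonoidHom.mk' (fun v => ⟨fun i => v.1 (σ.1⁻¹ i), prmF_mem σ v.2⟩)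
    fun _ _ => rfl) fun v => Equiv.sum_comp σ.1⁻¹ fun i => v.1 i ^ 2
  map_one' := co0_ext fun _ => rfl
  map_mul' _ _ := co0_ext fun _ => rfl

theorem prm_apply (σ : M24) (v : Lv) (i : GolayPt) : (prm σ • v).1 i = v.1 (σ.1⁻¹ i) := rfl

theorem prm_apply' (σ : M24) (v : Lv) (i : GolayPt) : (prm σ • v).1 (σ.1 i) = v.1 i := by
  rw [prm_apply]; simp

theorem prm_e8 (σ : M24) (i : GolayPt) : prm σ • e8 i = e8 (σ.1 i) := Subtype.ext (funext fun j => by
  simp only [prm_apply, e8_apply, Equiv.Perm.inv_eq_iff_eq])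

theorem prm_injective : Function.Injective prm := (injective_iff_map_eq_one prm).2 fun σ h =>
  Subtype.ext (Equiv.ext fun i => e8_inj (by rw [← prm_e8, h, one_smul]; rfl))

theorem prm_mul_sgn (σ : M24) {c : Finset GolayPt} (hc : IsCw c) :
    prm σ * sgn c = sgn (σ.1 • c) * prm σ := co0_ext fun v => Subtype.ext (funext fun i => by
  rw [mul_smul, mul_smul, sgn_apply (hc.smul σ.2), prm_apply, prm_apply, sgn_apply hc]
  simp only [← inv_smul_mem_iff, Equiv.Perm.smul_def])

theorem prm_conj_sgn (σ : M24) {c : Finset GolayPt} (hc : IsCw c) :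
    prm σ * sgn c * (prm σ)⁻¹ = sgn (σ.1 • c) := by rw [prm_mul_sgn σ hc, mul_inv_cancel_right]

theorem sgn_prm_e8 {c : Finset GolayPt} (hc : IsCw c) (σ : M24) (i : GolayPt) :
    (sgn c * prm σ) • e8 i = if σ.1 i ∈ c then -e8 (σ.1 i) else e8 (σ.1 i) := by
  rw [mul_smul, prm_e8, sgn_e8 hc]

theorem sgn_prm_inj {c d : Finset GolayPt} (hc : IsCw c) (hd : IsCw d) {σ τ : M24}
    (h : sgn c * prm σ = sgn d * prm τ) : c = d ∧ σ = τ := by
  have : σ = τ := Subtype.ext (Equiv.ext fun i => by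
    have := sgn_prm_e8 hc σ i
    rw [h, sgn_prm_e8 hd] at this
    split_ifs at this
    · exact (e8_inj (neg_injective this)).symm
    · exact absurd this.symm (e8_ne_neg _ _)
    · exact absurd this (e8_ne_neg _ _)
    · exact (e8_inj this).symm)
  subst this
  exact ⟨sgn_inj hc hd (mul_right_cancel h), rfl⟩

/-- The monomial group. -/
def Nm : Subgroup Co0 where
  carrier := {g | ∃ c σ, IsCw c ∧ g = sgn c * prm σ}
  one_mem' := ⟨∅, 1, isCw_empty, by rw [sgn_empty, map_one, one_mul]⟩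
  mul_mem' := by
    rintro _ _ ⟨c, σ, hc, rfl⟩ ⟨d, τ, hd, rfl⟩
    refine ⟨c ∆ (σ.1 • d), σ * τ, hc.symmDiff (hd.smul σ.2), ?_⟩
    rw [sgn_symmDiff hc (hd.smul σ.2), map_mul, mul_assoc, mul_assoc, ← mul_assoc (prm σ),
      prm_mul_sgn σ hd, mul_assoc]
  inv_mem' := by
    rintro _ ⟨c, σ, hc, rfl⟩
    refine ⟨(σ⁻¹).1 • c, σ⁻¹, hc.smul (σ⁻¹).2, ?_⟩
    rw [mul_inv_rev, sgn_inv, ← map_inv, prm_mul_sgn _ hc]

theorem mem_Nm {g : Co0} : g ∈ Nm ↔ ∃ c σ, IsCw c ∧ g = sgn c * prm σ := Iff.rfl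

theorem sgn_mem_Nm {c : Finset GolayPt} (hc : IsCw c) : sgn c ∈ Nm :=
  ⟨c, 1, hc, by rw [map_one, mul_one]⟩

theorem prm_mem_Nm (σ : M24) : prm σ ∈ Nm := ⟨∅, σ, isCw_empty, by rw [sgn_empty, one_mul]⟩

/-! ### The frame stabiliser -/

theorem frame_vec {x : GolayPt → ℤ} (hn : sqNorm x = 64) (hc : Cong x (e8 none).1) :
    ∃ j, x = (e8 j).1 ∨ x = -(e8 j).1 := by
  by_contra h
  push Not at h
  have : x = 0 := funext fun j => by
    rcases short_cong (e8 j).2 hn.le (norm_e8 j).le (hc.trans (e8_cong _ j)) with h1 | h1 | h1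
    · exact absurd h1 (h j).1
    · exact absurd h1 (h j).2
    · have := h1.2.2; rw [dot_e8] at this; simpa using this
  rw [this, sqNorm_zero] at hn
  omega

theorem mem_Nm_iff {g : Co0} : g ∈ Nm ↔ Cong (g • e8 none).1 (e8 none).1 := by
  constructor
  · rintro ⟨c, σ, hc, rfl⟩
    rw [sgn_prm_e8 hc]
    split_ifs
    · exact (cong_neg (e8 _).2).trans (e8_cong _ _)
    · exact e8_cong _ _
  intro h
  have h1 : ∀ i, ∃ j, (g • e8 i).1 = (e8 j).1 ∨ (g • e8 i).1 = -(e8 j).1 := fun i =>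
    frame_vec (by rw [norm_smul, norm_e8]) (((e8_cong i none).smul g).trans h)
  choose f hf using h1
  have hinj : Function.Injective f := fun i j hij => by
    by_contra hne
    have h2 := dot_smul g (e8 i) (e8 j)
    rw [dot_e8, e8_apply, if_neg (Ne.symm hne)] at h2
    rcases hf i with h3 | h3 <;> rcases hf j with h4 | h4 <;>
      simp [h3, h4, hij, dot_neg, neg_dot, dot_self, norm_e8, sqNorm_neg] at h2
  let σ : Equiv.Perm GolayPt := Equiv.ofBijective f (Finite.injective_iff_bijective.1 hinj)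
  classical
  let c : Finset GolayPt := univ.filter fun j => (g • e8 (σ⁻¹ j)).1 = -(e8 j).1
  have hg : ∀ (v : Lv) j, (g • v).1 j = if j ∈ c then -v.1 (σ⁻¹ j) else v.1 (σ⁻¹ j) := fun v j => by
    have h2 := dot_smul g v (e8 (σ⁻¹ j))
    have h3 : f (σ⁻¹ j) = j := σ.apply_symm_apply j
    rw [dot_e8] at h2
    split_ifs with hj
    · rw [(mem_filter.1 hj).2, dot_neg, dot_e8] at h2; omega
    · have := (hf (σ⁻¹ j)).resolve_right (by rw [h3]; exact fun h => hj (mem_filter.2 ⟨mem_univ _, h⟩))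
      rw [this, h3, dot_e8] at h2; omega
  have hσ : σ ∈ M24 := mem_M24.2 fun d hd => by
    convert isCw_mod_four (g • (⟨_, two_chi_mem hd⟩ : Lv)).2 2 using 1
    ext j
    rw [mem_filter, hg, ← inv_smul_mem_iff, Equiv.Perm.smul_def]
    simp only [chi]
    split_ifs with h1 h2 h2 <;> simp [h2, -Equiv.Perm.coe_inv]
  have hc : IsCw c := by
    have hw : (fun i => 1 + 2 * chi ∅ i + 4 * chi {none} i) ∈ leechLattice :=
      mem_of_form 1 _ isCw_empty (by rw [sum_chi]; simp) fun _ => rfl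
    convert isCw_mod_four (g • (⟨_, hw⟩ : Lv)).2 3 using 1
    ext j
    rw [mem_filter (s := univ) (p := fun i => _ % 4 = 3 % 4), hg]
    simp only [chi_empty, Pi.zero_apply, mem_univ, true_and]
    split_ifs with h1 <;> simp only [h1, true_iff, false_iff] <;> omega
  exact ⟨c, ⟨σ, hσ⟩, hc, co0_ext fun v => Subtype.ext (funext fun j => by
    rw [hg, mul_smul, sgn_apply hc]; rfl)⟩

end Cfsg.Agent.Leech
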