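import Cfsg.Agent.Leech.O2
import Cfsg.Agent.GT.MapInj

/-! # Stabilisers of classes modulo two and their images in the first Conway group -/

set_option autoImplicit false

namespace Cfsg.Agent.Leech

open Finset Cfsg.Agent.M24 Cfsg.Spor Cfsg.Agent.GT
open scoped symmDiff Pointwise

/-- The projection onto the first Conway group. -/
abbrev pj : Co0 →* Co1 := QuotientGroup.mk' (Subgroup.center Co0)

theorem pj_surj : Function.Surjective pj := QuotientGroup.mk'_surjective _

theorem pj_eq_one {g : Co0} : pj g = 1 ↔ g = 1 ∨ g = ng :=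
  (QuotientGroup.eq_one_iff g).trans mem_center_iff

theorem pj_ng : pj ng = 1 := pj_eq_one.2 (Or.inr rfl)

theorem pj_eq {g h : Co0} : pj g = pj h ↔ h = g ∨ h = ng * g := by
  rw [eq_comm, ← mul_inv_eq_one, ← map_inv, ← map_mul, pj_eq_one, mul_inv_eq_one,
    mul_inv_eq_iff_eq_mul]

theorem cong_of_pj {g h : Co0} (e : pj g = pj h) (v : Lv) : Cong (g • v).1 (h • v).1 := by
  rcases pj_eq.1 e with rfl | rfl
  · exact Cong.refl _
  · rw [mul_smul, ng_smul]; exact (cong_neg (g • v).2).symm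

/-- The stabiliser of the class of `v` modulo twice the lattice. -/
def St (v : Lv) : Subgroup Co0 where
  carrier := {g | Cong (g • v).1 v.1}
  one_mem' := Cong.refl _
  mul_mem' {g h} hg hh := by
    change Cong ((g * h) • v).1 _
    rw [mul_smul]; exact (Cong.smul hh g).trans hg
  inv_mem' {g} hg := by simpa using (Cong.smul hg g⁻¹).symm

theorem mem_St {v : Lv} {g : Co0} : g ∈ St v ↔ Cong (g • v).1 v.1 := Iff.rfl

theorem St_congr {v w : Lv} (h : Cong v.1 w.1) : St v = St w := Subgroup.ext fun g =>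
  ⟨fun hg => ((h.smul g).symm.trans hg).trans h, fun hg => ((h.smul g).trans hg).trans h.symm⟩

theorem St_smul (g : Co0) (v : Lv) : St (g • v) = cj[g] (St v) := Subgroup.ext fun h => by
  rw [mem_conj, mem_St, mem_St, ← cong_smul_iff g⁻¹, inv_smul_smul, mul_smul, mul_smul]

theorem St_e8 : St (e8 none) = Nm := Subgroup.ext fun _ => mem_Nm_iff.symm

theorem ng_mem_St (v : Lv) : ng ∈ St v := by rw [mem_St, ng_smul]; exact cong_neg v.2

theorem center_le_St (v : Lv) : Subgroup.center Co0 ≤ St v := fun g hg => by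
  rcases mem_center_iff.1 hg with rfl | rfl
  · exact one_mem _
  · exact ng_mem_St v

theorem mem_St_short {v : Lv} (hv : sqNorm v.1 < 64) {g : Co0} :
    g ∈ St v ↔ g • v = v ∨ (ng * g) • v = v := by
  constructor
  · intro h
    exact (short_pm hv h).imp_right fun h => by rw [mul_smul, h, ng_smul, neg_neg]
  · rintro (h | h)
    · rw [mem_St, h]; exact Cong.refl _
    · refine ((St v).mul_mem_cancel_left (ng_mem_St v)).1 ?_
      rw [mem_St, h]; exact Cong.refl _

theorem O2_St2 {v : Lv} (hv : Eqv v vecU) {B : Subgroup Co0} (hB : IsPGroup 2 B) (h1 : B ≤ St v)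
    (h2 : St v ≤ N[B]) : B ≤ Subgroup.center Co0 := by
  obtain ⟨g, hg⟩ := hv
  have e : cj[g] (St v) = St leechU := by rw [← St_smul]; exact St_congr hg
  have h3 : cj[g] B ≤ St leechU := e ▸ conj_mono g h1
  have h4 : St leechU ≤ N[cj[g] B] := by rw [← e, ← conj_normalizer]; exact conj_mono g h2
  have hU : sqNorm leechU.1 < 64 := by rw [show sqNorm leechU.1 = 32 from norm_U]; norm_num
  have h5 := O2_Co2 (B := cj[g] B ⊓ MulAction.stabilizer Co0 leechU)
    (PG.isPGroup_conj_iff.2 hB).to_inf_left inf_le_right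
    (le_norm_inf (le_trans (fun x hx => (mem_St_short hU).2 (Or.inl hx)) h4) Subgroup.le_normalizer)
  have h6 : cj[g] B ≤ Subgroup.center Co0 := fun b hb => by
    rcases (mem_St_short hU).1 (h3 hb) with h | h
    · rw [Subgroup.mem_bot.1 (h5.le ⟨hb, h⟩)]; exact one_mem _
    · -- replace `B` by its product with the centre
      by_contra hc
      have hC : IsPGroup 2 (Subgroup.center Co0) := PG.isPGroup_of_forall_pow fun x hx => by
        rcases mem_center_iff.1 hx with rfl | rfl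
        · exact one_pow _
        · rw [sq, ng_mul_self]
      have h7 := O2_Co2 (B := (cj[g] B ⊔ Subgroup.center Co0) ⊓ MulAction.stabilizer Co0 leechU)
        ((PG.isPGroup_conj_iff.2 hB).to_sup_of_normal_right hC).to_inf_left inf_le_right
        (le_norm_inf (le_norm_sup (le_trans (fun x hx => (mem_St_short hU).2 (Or.inl hx)) h4)
          le_norm_of_normal) Subgroup.le_normalizer)
      have := Subgroup.mem_bot.1 (h7.le ⟨mul_mem (Subgroup.mem_sup_right ng_mem_center)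
        (Subgroup.mem_sup_left hb), h⟩)
      exact hc (by rw [eq_inv_of_mul_eq_one_right this]; exact inv_mem ng_mem_center)
  rwa [conj_le_iff, conj_eq_self_of_normal] at h6

theorem O2_St4 {g : Co0} {B : Subgroup Co0} (hB : IsPGroup 2 B) (h1 : B ≤ St (g • e8 none))
    (h2 : St (g • e8 none) ≤ N[B]) : B ≤ cj[g] Sg := by
  rw [St_smul, St_e8] at h1 h2
  rw [le_conj_iff] at h1 ⊢
  refine le_Sg (PG.isPGroup_conj_iff.2 hB) h1 ?_
  rwa [← conj_normalizer, ← conj_le_iff]

theorem card_center : Nat.card (Subgroup.center Co0) = 2 := by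
  have : Subgroup.center Co0 = Subgroup.zpowers ng := le_antisymm (fun g hg => by
    rcases mem_center_iff.1 hg with rfl | rfl
    · exact one_mem _
    · exact Subgroup.mem_zpowers _) (Subgroup.zpowers_le.2 ng_mem_center)
  rw [this, Nat.card_zpowers, orderOf_eq_prime (by rw [sq, ng_mul_self]) ng_ne_one]

theorem center_le_Sg : Subgroup.center Co0 ≤ Sg := fun g hg => by
  rcases mem_center_iff.1 hg with rfl | rfl
  · exact one_mem _
  · exact ng_mem_Sg

theorem card_map_pj {H : Subgroup Co0} (h : Subgroup.center Co0 ≤ H) :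
    Nat.card (H.map pj) * 2 = Nat.card H := by
  rw [← card_map_mul_card_inf_ker pj H, QuotientGroup.ker_mk', inf_eq_left.2 h, card_center]

theorem card_E1 : Nat.card (Sg.map pj) = 2048 := by
  have := card_map_pj center_le_Sg
  rw [card_Sg] at this; omega

theorem pj_prm_inj : Function.Injective (pj.comp prm) := (injective_iff_map_eq_one _).2 fun σ h => by
  rcases pj_eq_one.1 h with h | h
  · exact prm_injective (h.trans (map_one prm).symm)
  · exact (sgn_prm_inj isCw_empty isCw_univ (τ := 1)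
      (by rw [sgn_empty, one_mul, h, map_one, mul_one, ng])).2

theorem split_of_iso {H : Type*} [Group H] (f : Co1 ≃* H) {X E : Subgroup H}
    (hX : X = (Nm.map pj).map f.toMonoidHom) (hE : E = (Sg.map pj).map f.toMonoidHom) :
    E ≤ X ∧ (∀ x ∈ X, ∀ y ∈ E, x * y * x⁻¹ ∈ E) ∧ IsElementaryAbelian 2 E ∧ Nat.card E = 2 ^ 11 ∧
      ∃ K : Subgroup H, K ≤ X ∧ E ⊓ K = ⊥ ∧ E ⊔ K = X ∧ Nonempty (K ≃* M24) := by
  subst hX hE
  refine ⟨Subgroup.map_mono (Subgroup.map_mono Sg_le_Nm), ?_, ⟨?_, ?_⟩, ?_,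
    (prm.range.map pj).map f.toMonoidHom, Subgroup.map_mono (Subgroup.map_mono ?_), ?_, ?_, ?_⟩
  · rintro _ ⟨_, ⟨x, hx, rfl⟩, rfl⟩ _ ⟨_, ⟨y, hy, rfl⟩, rfl⟩
    exact ⟨_, ⟨_, conj_mem_of_le_norm Nm_le_norm_Sg hx hy, rfl⟩, by simp⟩
  · refine isMulCommutative_iff_forall.2 ?_
    rintro _ ⟨_, ⟨_, ⟨c, hc, rfl⟩, rfl⟩, rfl⟩ _ ⟨_, ⟨_, ⟨d, hd, rfl⟩, rfl⟩, rfl⟩
    rw [← map_mul, ← map_mul, sgn_comm hc hd, map_mul, map_mul]
  · rintro _ ⟨_, ⟨_, ⟨c, hc, rfl⟩, rfl⟩, rfl⟩
    rw [← map_pow, ← map_pow, sq, sgn_mul_self, map_one, map_one]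
  · rw [Subgroup.card_map_of_injective f.injective, card_E1]; norm_num
  · rintro _ ⟨σ, rfl⟩; exact prm_mem_Nm σ
  · rw [← Subgroup.map_inf _ _ _ f.injective, Subgroup.map_eq_bot_iff_of_injective _ f.injective,
      eq_bot_iff]
    rintro _ ⟨⟨_, ⟨c, hc, rfl⟩, rfl⟩, _, ⟨σ, rfl⟩, e⟩
    have : σ = 1 := by
      rcases pj_eq.1 e with h | h
      · exact (sgn_prm_inj isCw_empty hc (τ := 1)
          (by rw [sgn_empty, one_mul, ← h, map_one, mul_one])).2
      · exact (sgn_prm_inj isCw_univ hc (τ := 1) (by rw [h, map_one, mul_one, ng])).2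
    rw [← e, this, map_one, map_one]; exact one_mem _
  · rw [← Subgroup.map_sup, ← Subgroup.map_sup]
    congr 2
    refine le_antisymm (sup_le Sg_le_Nm (by rintro _ ⟨σ, rfl⟩; exact prm_mem_Nm σ)) ?_
    rintro _ ⟨c, σ, hc, rfl⟩
    exact mul_mem (Subgroup.mem_sup_left ⟨c, hc, rfl⟩) (Subgroup.mem_sup_right ⟨σ, rfl⟩)
  · rw [MonoidHom.map_range, MonoidHom.map_range]
    exact ⟨(MonoidHom.ofInjective (f.injective.comp pj_prm_inj)).symm⟩

theorem card_Nm : Nat.card Nm = 4096 * 244823040 := by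
  have : Nat.card Nm = Nat.card (Sg × M24) := by
    refine (Nat.card_congr (Equiv.ofBijective (fun x : Sg × M24 =>
      (⟨x.1.1 * prm x.2, mul_mem (Sg_le_Nm x.1.2) (prm_mem_Nm _)⟩ : Nm)) ⟨?_, ?_⟩)).symm
    · rintro ⟨⟨_, c, hc, rfl⟩, σ⟩ ⟨⟨_, d, hd, rfl⟩, τ⟩ e
      obtain ⟨rfl, rfl⟩ := sgn_prm_inj hc hd (Subtype.mk.inj e)
      rfl
    · rintro ⟨_, c, σ, hc, rfl⟩
      exact ⟨⟨⟨_, c, hc, rfl⟩, σ⟩, rfl⟩
  rw [this, Nat.card_prod, card_Sg, card_M24]

end Cfsg.Agent.Leech
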