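import Cfsg.Agent.Leech.Odd
import Cfsg.Agent.M24.LinAct

/-! # Certificates for centralizers of coordinate permutations of odd order in the Conway group -/

set_option autoImplicit false

namespace Cfsg.Agent.Leech

open Cfsg.Spor Cfsg.Agent.GT Subgroup Cfsg.Agent.M24 MulAction
open scoped Pointwise symmDiff

/-! ### Words -/

/-- The matrix of a monomial automorphism. -/
noncomputable def matSP (m p : ℕ) : ℕ := force (inv p) fun q =>
  pk fun j => force (a96 bT j) fun n => force (prN q n) fun n' => force (sgN m n') cdN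

theorem mat_sgn_prm {m : ℕ} (h : IsCw (unmask m)) (σ : M24) :
    mat (sgn (unmask m) * prm σ) = matSP m (mcode σ) := by
  rw [matSP, force_eq]
  exact pk_congr fun j hj => by
    rw [force_eq, force_eq, force_eq]
    exact cd_of_rep (by rw [mul_smul, sgn_smul h]; exact ((rep_bv j hj).pr σ).sg m)

/-- Matrix of a letter. -/
noncomputable def ltr (a : ℕ) : ℕ := bif' (Nat.beq a (nat_lit 0)) matX
  (matSP (Nat.land a (nat_lit 0xffffff)) (Nat.shiftRight a (nat_lit 24)))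

/-- Validity of a letter. -/
noncomputable def ltrOk (a : ℕ) : Bool := bor (Nat.beq a (nat_lit 0))
  (band (Nat.beq (syn (Nat.land a (nat_lit 0xffffff))) (nat_lit 0))
    (isM24 (Nat.shiftRight a (nat_lit 24))))

/-- Matrix of a word. -/
noncomputable def wmat (w : List ℕ) : ℕ :=
  List.rec (motive := fun _ => ℕ) onem (fun a _ r => force (ltr a) fun A => force r (mulm A)) w

theorem exists_ltr {a : ℕ} (h : ltrOk a = true) : ∃ g, mat g = ltr a := by
  simp only [ltrOk, bor_eq, band_eq, Bool.or_eq_true, Bool.and_eq_true, Nat.beq_eq] at h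
  rw [ltr, bif'_eq]
  split_ifs with h1
  · exact ⟨xi, mat_xi⟩
  · obtain ⟨h2, h3⟩ := h.resolve_left (by simpa using h1)
    exact ⟨_, (mat_sgn_prm ((isCw_unmask (Nat.and_lt_two_pow (n := 24) _ (by norm_num))).2 h2)
      (elt _)).trans (by rw [mcode_elt h3]; rfl)⟩

theorem exists_wmat {w : List ℕ} {s : ℕ} (h : band (lall w ltrOk) (Nat.beq (wmat w) s) = true) :
    ∃ g, mat g = s := by
  rw [band_eq, Bool.and_eq_true, Nat.beq_eq, lall_iff] at h
  obtain ⟨h, rfl⟩ := h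
  induction w with
  | nil => exact ⟨1, mat_one⟩
  | cons a w ih =>
    obtain ⟨g, hg⟩ := exists_ltr (h a List.mem_cons_self)
    obtain ⟨k, hk⟩ := ih fun b hb => h b (List.mem_cons_of_mem _ hb)
    exact ⟨g * k, by rw [mat_mul, hg, hk]; simp only [wmat, force_eq]⟩

theorem gen_le_cent {y : Co0} (hy : Odd (orderOf y)) {Y : ℕ} (hY : mat y = Y) {l : List ℕ}
    (h : (lall l fun s => Nat.beq (mulm s Y) (mulm Y s)) = true) : gen mat l ≤ C1[y] :=
  gen_le fun g hg => mem_cent1.2 (commute_of_pj hy (by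
    have := Nat.eq_of_beq_eq_true ((lall_iff _ _).1 h _ hg)
    rwa [← hY, ← mat_mul, ← mat_mul, mat_eq, map_mul, map_mul] at this))

/-! ### The monomial part -/

theorem mem_cent_prm {c : Finset GolayPt} (hc : IsCw c) {σ y : M24} :
    sgn c * prm σ ∈ C1[prm y] ↔ y.1 • c = c ∧ σ ∈ C1[y] := by
  rw [mem_cent1, mem_cent1, ← mul_assoc, prm_mul_sgn y hc, mul_assoc, mul_assoc, ← map_mul, ← map_mul]
  exact ⟨fun h => let ⟨h1, h2⟩ := sgn_prm_inj hc (hc.smul y.2) h; ⟨h1.symm, h2⟩,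
    fun h => by rw [h.1, h.2]⟩

theorem card_Nm_cent {y : M24} {Y n : ℕ} (hY : mcode y = Y)
    (h : bsum (fun x => b2n (force (cw x) fun m => Nat.beq (act Y m) m)) 12 0 = n) :
    Nat.card ↥(Nm ⊓ C1[prm y]) = n * Nat.card C1[y] := by
  rw [← h, ← ncard_cw (P := fun c => y.1 • c = c) fun s _ => by
    rw [Nat.beq_eq, ← hY, mcode, act_mask, mask_inj.eq_iff], ← Nat.card_coe_set_eq, ← Nat.card_prod]
  refine (Nat.card_congr (Equiv.ofBijective (fun x : {c | IsCw c ∧ y.1 • c = c} × C1[y] =>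
    (⟨sgn x.1 * prm x.2, mem_Nm.2 ⟨_, _, x.1.2.1, rfl⟩, (mem_cent_prm x.1.2.1).2 ⟨x.1.2.2, x.2.2⟩⟩ :
      ↥(Nm ⊓ C1[prm y]))) ⟨?_, ?_⟩)).symm
  · rintro ⟨⟨c, hc⟩, σ⟩ ⟨⟨d, hd⟩, τ⟩ e
    obtain ⟨rfl, h⟩ := sgn_prm_inj hc.1 hd.1 (Subtype.mk.inj e)
    exact Prod.ext rfl (Subtype.ext h)
  · rintro ⟨_, ⟨c, σ, hc, rfl⟩, h⟩
    exact ⟨⟨⟨c, hc, ((mem_cent_prm hc).1 h).1⟩, σ, ((mem_cent_prm hc).1 h).2⟩, rfl⟩

/-- Membership in the span of a list of bit vectors. -/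
noncomputable def spanHas (cs : List ℕ) : ℕ → Bool :=
  List.rec (motive := fun _ => ℕ → Bool) (fun m => Nat.beq m (nat_lit 0))
    (fun c _ ih m => bor (ih m) (force (Nat.xor m c) ih)) cs

theorem spanHas_ind {P : ℕ → Prop} (h0 : P 0) (hx : ∀ a b, P a → P b → P (a ^^^ b)) {cs : List ℕ}
    (h : ∀ c ∈ cs, P c) {m : ℕ} (hm : spanHas cs m = true) : P m := by
  induction cs generalizing m with
  | nil => rwa [Nat.eq_of_beq_eq_true hm]
  | cons c cs ih =>
    have ih' := @ih fun d hd => h d (List.mem_cons_of_mem _ hd)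
    have : spanHas (c :: cs) m = bor (spanHas cs m) (force (m ^^^ c) (spanHas cs)) := rfl
    rw [this, bor_eq, force_eq, Bool.or_eq_true] at hm
    refine hm.elim ih' fun h1 => ?_
    have := hx _ _ (ih' h1) (h c List.mem_cons_self)
    rwa [Nat.xor_assoc, Nat.xor_self, Nat.xor_zero] at this

theorem Nm_cent_le {y : M24} {Y : ℕ} (hY : mcode y = Y) {lc : List ℕ} (hc : C1[y] = gen mcode lc)
    {l cs : List ℕ} (h : band (band (lall lc fun p => force (matSP 0 p) fun A => lany l (Nat.beq A))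
      (lall cs fun m => band (band (Nat.ble m 0xffffff) (Nat.beq (syn m) 0))
        (force (matSP m one) fun A => lany l (Nat.beq A))))
      (ball (fun x => force (cw x) fun m => bor (!Nat.beq (act Y m) m) (spanHas cs m)) 12 0) = true) :
    Nm ⊓ C1[prm y] ≤ gen mat l := by
  simp only [band_eq, Bool.and_eq_true, lall_iff, force_eq (matSP _ _), lany_iff, Nat.beq_eq,
    Nat.ble_eq, exists_eq_right'] at h
  obtain ⟨⟨h1, h2⟩, h3⟩ := h
  rintro _ ⟨⟨c, σ, h4, rfl⟩, h5⟩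
  obtain ⟨h5, h6⟩ := (mem_cent_prm h4).1 h5
  refine mul_mem ?_ (gen_le (H := (gen mat l).comap prm) (fun τ hτ => mem_gen_of_mem ?_) (hc ▸ h6))
  · have := forall_cw h3 c h4
    rw [← hY, mcode, act_mask, h5, bor_eq, Nat.beq_refl] at this
    have := spanHas_ind (P := fun m => m < 2 ^ 24 ∧ IsCw (unmask m) ∧ sgn (unmask m) ∈ gen mat l)
      ⟨by norm_num, unmask_zero ▸ isCw_empty, by rw [unmask_zero, sgn_empty]; exact one_mem _⟩
      (fun a b ha hb => ⟨Nat.xor_lt_two_pow ha.1 hb.1, by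
        rw [unmask_xor ha.1 hb.1, sgn_symmDiff ha.2.1 hb.2.1]
        exact ⟨ha.2.1.symmDiff hb.2.1, mul_mem ha.2.2 hb.2.2⟩⟩)
      (fun m hm => by
        obtain ⟨⟨a1, a2⟩, a3⟩ := h2 m hm
        have a4 := (isCw_unmask (by omega)).2 a2
        refine ⟨by omega, a4, mem_gen_of_mem ?_⟩
        rwa [← mul_one (sgn _), ← map_one prm, mat_sgn_prm a4, gcM.code_one]) this
    rw [unmask_mask] at this
    exact this.2.2
  · have := h1 _ hτ
    rwa [← mat_sgn_prm (unmask_zero ▸ isCw_empty), unmask_zero, sgn_empty, one_mul] at this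

/-! ### Fixed classes -/

theorem apn_lt (n M x : ℕ) : apn n M x < 2 ^ 24 := by
  induction n with
  | zero => exact Nat.two_pow_pos _
  | succ n ih =>
    rw [apn_succ, bit_eq]
    refine Nat.xor_lt_two_pow ih ?_
    have : col M n < 2 ^ 24 := apw_lt (w := 24) (mk := 0xffffff) (by norm_num) M n
    split_ifs <;> omega

/-- `x + Y x + … + Y ^ (p - 1) x`. -/
noncomputable def hsum (Y p x : ℕ) : ℕ :=
  Nat.rec (motive := fun _ => ℕ) (nat_lit 0) (fun _ a => force a fun a => Nat.xor x (apm Y a)) p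

/-- The columns of `F` are a basis of the fixed space of `Y`, `P` is a left inverse of `F`. -/
noncomputable def fixSp (Y p d F P : ℕ) : Bool :=
  band (nall d fun i => force (col F i) fun f =>
      band (Nat.beq (apm Y f) f) (Nat.beq (apm P f) (Nat.pow (nat_lit 2) i)))
    (nall (nat_lit 24) fun j => force (hsum Y p (Nat.pow (nat_lit 2) j)) fun e => force (apm P e)
      fun c => band (Nat.ble (Nat.succ c) (Nat.pow (nat_lit 2) d)) (Nat.beq (apn d F c) e))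

theorem fixSp_sound {y : Co0} {Y p d F P : ℕ} (hY : mat y = Y) (hp : Odd p)
    (h : fixSp Y p d F P = true) :
    (∀ x : Lt, y • x = x ↔ ∃ m < 2 ^ d, cdx x = apn d F m) ∧ {x : Lt | y • x = x}.ncard = 2 ^ d := by
  simp only [fixSp, band_eq, Bool.and_eq_true, nall_iff, force_eq, Nat.beq_eq, Nat.ble_eq] at h
  obtain ⟨h1, h2⟩ := h
  have a1 : ∀ m < 2 ^ d, apm Y (apn d F m) = apn d F m ∧ apm P (apn d F m) = m :=
    bits_induction (by simp [apm, apn_zero]) (fun i hi => by rw [apn_pow, if_pos hi]; exact h1 i hi)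
      fun a _ b _ ha hb => by
        rw [apn_xor, apm, apm, apn_xor, apn_xor, ← apm, ← apm, ← apm, ← apm, ha.1, hb.1, ha.2, hb.2]
        exact ⟨rfl, rfl⟩
  have hs : ∀ n x, hsum Y (n + 1) x = x ^^^ apm Y (hsum Y n x) := fun n x =>
    force_eq (hsum Y n x) fun a => Nat.xor x (apm Y a)
  have a2 : ∀ n a b, hsum Y n (a ^^^ b) = hsum Y n a ^^^ hsum Y n b := fun n a b => by
    induction n with
    | zero => exact (Nat.xor_self 0).symm
    | succ n ih => simp only [hs, ih, apm, apn_xor, Nat.xor_assoc, Nat.xor_left_comm]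
  have a3 : ∀ x < 2 ^ 24, ∃ m < 2 ^ d, hsum Y p x = apn d F m :=
    bits_induction ⟨0, Nat.two_pow_pos _, by
        have := a2 p 0 0
        rw [Nat.xor_self, Nat.xor_self] at this
        rw [this, apn_zero]⟩
      (fun j hj => ⟨_, (h2 j hj).1, (h2 j hj).2.symm⟩) fun a _ b _ ⟨m, hm, e⟩ ⟨n, hn, e'⟩ =>
        ⟨m ^^^ n, Nat.xor_lt_two_pow hm hn, by rw [a2, e, e', apn_xor]⟩
  have a4 : ∀ x : Lt, y • x = x ↔ ∃ m < 2 ^ d, cdx x = apn d F m := fun x => by
    refine ⟨fun hx => ?_, fun ⟨m, hm, e⟩ => cdx_inj (by rw [← apm_mat, hY, e, (a1 m hm).1])⟩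
    have : ∀ k, hsum Y (2 * k + 1) (cdx x) = cdx x := fun k => by
      induction k with
      | zero => rw [hs, apm]; exact (congrArg _ (apn_zero _ _)).trans (Nat.xor_zero _)
      | succ k ih =>
        rw [mul_add, hs, hs, ih, ← hY, apm_mat, hx, Nat.xor_self, apm, apn_zero, Nat.xor_zero]
    obtain ⟨k, rfl⟩ := hp
    exact this k ▸ a3 _ (cdx_lt x)
  refine ⟨a4, ?_⟩
  rw [← Set.ncard_image_of_injective _ cdx_inj,
    show cdx '' {x : Lt | y • x = x} = apn d F '' Set.Iio (2 ^ d) from Set.ext fun k =>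
      ⟨fun ⟨x, hx, e⟩ => let ⟨m, hm, e'⟩ := (a4 x).1 hx; ⟨m, hm, e'.symm.trans e⟩,
        fun ⟨m, hm, e⟩ => ⟨unx k, (a4 _).2 ⟨m, hm, by rw [cdx_unx (e ▸ apn_lt _ _ _), e]⟩,
          cdx_unx (e ▸ apn_lt _ _ _)⟩⟩,
    Set.InjOn.ncard_image fun a ha b hb e => by rw [← (a1 a ha).2, e, (a1 b hb).2], Set.ncard_Iio_nat]

theorem fix_of_cols {g : Co0} {d F : ℕ} (h : ∀ i < d, ∀ x : Lt, cdx x = col F i → g • x = x) {x : Lt}
    (hx : ∃ m < 2 ^ d, cdx x = apn d F m) : g • x = x := by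
  obtain ⟨m, hm, e⟩ := hx
  refine cdx_inj ?_
  rw [← apm_mat, e]
  exact bits_induction (P := fun m => apm (mat g) (apn d F m) = apn d F m) (by simp [apm, apn_zero])
    (fun i hi => by
      have h1 := cdx_unx (apn_lt d F (2 ^ i))
      rw [← h1, apm_mat, h i hi _ (by rw [h1, apn_pow, if_pos hi])])
    (fun a _ b _ ha hb => by rw [apn_xor, apm, apn_xor, ← apm, ← apm, ha, hb]) m hm

/-! ### Orbits -/

theorem cdx_x8 : cdx x8 = 1 := cdx_e8

theorem conn_keys {l : List ℕ} (hv : Valid mat l) {t : T} {x₀ x : Lt} {k : ℕ} (hk : cdx x₀ = k)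
    (h : connChk apm l k t = true) (hx : t.has (cdx x) = true) : ∃ g ∈ gen mat l, g • x₀ = x :=
  let ⟨g, hg, e⟩ := acL.conn_sound hv (x₀ := x₀) trivial (hk ▸ h) _ (T.has_sound hx)
  ⟨g, hg, cdx_inj e⟩

theorem not_orbit {l : List ℕ} (hv : Valid mat l) {t : T} {x : Lt} (v : List ℤ) (n : ℕ)
    (h1 : InL (vec v) ∧ sqNorm (vec v) < 64 ∧ Rep (vec v) n)
    (h : (force (cdN n) fun k => connChk apm l k t) = true) (hx : t.has (cdx x) = true) :
    x ∉ orbit Co0 x8 := fun h2 => by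
  obtain ⟨g, -, rfl⟩ := conn_keys hv (x₀ := cl ⟨vec v, inL_iff.1 h1.1⟩) (cd_of_rep h1.2.2)
    (by rwa [force_eq] at h) hx
  have := ((Eqv.smul _ g).trans (cl_mem_orbit.1 h2)).norm_eq h1.2.1.le (norm_e8 _).le
  rw [norm_e8] at this
  exact h1.2.1.ne this

theorem zero_not_orbit {x : Lt} (h : cdx x = 0) : x ∉ orbit Co0 x8 := by
  rintro ⟨g, rfl⟩
  rw [← cdx_zero, cdx_inj.eq_iff, smul_eq_zero_iff_eq] at h
  exact absurd ((congrArg cdx h).trans cdx_zero) (by rw [cdx_x8]; norm_num)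

theorem cent_eq_gen {l : List ℕ} (hv : Valid mat l) {C : Subgroup Co0} (h1 : gen mat l ≤ C)
    (h2 : Nm ⊓ C ≤ gen mat l) {t : T} (h3 : ∀ x ∈ orbit C x8, t.has (cdx x) = true)
    (h : band (t.srt 0 (2 ^ 24)) (connChk apm l 1 t) = true) :
    C = gen mat l ∧ (∀ x, x ∈ orbit C x8 ↔ t.has (cdx x) = true) ∧ (orbit C x8).ncard = t.size ∧
      Nat.card C = Nat.card ↥(Nm ⊓ C) * t.size := by
  rw [band_eq, Bool.and_eq_true] at h
  have a1 : ∀ x, x ∈ orbit C x8 ↔ t.has (cdx x) = true := fun x => ⟨h3 x, fun hx =>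
    let ⟨g, hg, e⟩ := conn_keys hv cdx_x8 h.2 hx; ⟨⟨g, h1 hg⟩, e⟩⟩
  have a2 : (orbit C x8).ncard = t.size := by
    rw [T.size_eq, ← acL.ncard_keys (T.srt_nodup h.1) fun k hk =>
      ⟨_, trivial, cdx_unx (T.srt_bound h.1 k hk).2⟩]
    exact congrArg _ (Set.ext fun x => by simp [a1, T.has_iff h.1])
  refine ⟨le_antisymm (fun g hg => ?_) h1, a1, a2, by rw [← a2, inf_comm, ← stab_x8, card_inf_stab]⟩
  obtain ⟨k, hk, e⟩ := conn_keys hv cdx_x8 h.2 (h3 _ ⟨⟨g, hg⟩, rfl⟩)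
  rw [← mul_inv_cancel_left k g]
  refine mul_mem hk (h2 ⟨stab_x8.le ?_, C.mul_mem (C.inv_mem (h1 hk)) hg⟩)
  rw [mem_stabilizer_iff, mul_smul, inv_smul_eq_iff, e]; rfl

theorem ker_of_card {L : Type*} [Group L] {y : M24} (θ : C1[prm y] →* L) (hθ : Function.Surjective θ)
    (hf : ∀ g : C1[prm y], (∀ x ∈ orbit C1[prm y] x8, g • x = x) → θ g = 1)
    (hc : Nat.card C1[prm y] = orderOf y * 2 * Nat.card L) (g : C1[prm y]) :
    θ g = 1 ↔ pj g ∈ zpowers (pj (prm y)) := by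
  have h1 : ((zpowers (pj (prm y))).comap pj).subgroupOf C1[prm y] ≤ θ.ker := fun g ⟨k, hk⟩ =>
    hf g (by
      rintro _ ⟨c, rfl⟩
      refine (act_of_pj ((map_zpow pj _ k).trans hk) _).symm.trans ?_
      refine zpow_mem (show prm y ∈ stabilizer Co0 (c • x8) from ?_) k
      rw [mem_stabilizer_iff, Subgroup.smul_def, ← mul_smul, ← mem_cent1.1 c.2, mul_smul,
        show prm y • x8 = x8 from stab_x8.ge (prm_mem_Nm y)])
  have h2 := card_map_pj (H := (zpowers (pj (prm y))).comap pj) fun g hg => by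
    rw [mem_comap, pj_eq_one.2 (mem_center_iff.1 hg)]; exact one_mem _
  rw [map_comap_eq_self_of_surjective pj_surj, Nat.card_zpowers,
    show orderOf (pj (prm y)) = orderOf y from orderOf_injective _ pj_prm_inj y] at h2
  have h3 := θ.ker.card_mul_index
  rw [index_ker, MonoidHom.range_eq_top.2 hθ, card_top, hc] at h3
  have : Finite L := Finite.of_surjective _ hθ
  have h4 := eq_of_le_of_card_ge h1 (by
    rw [Nat.eq_of_mul_eq_mul_right Nat.card_pos h3, h2, card_subgroupOf]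
    rintro g ⟨k, hk⟩
    refine mem_cent1.2 ?_
    rcases pj_eq.1 ((map_zpow pj _ k).trans hk) with rfl | rfl
    · exact (Commute.refl _).zpow_left k
    · exact Commute.mul_left (ng_comm _).symm ((Commute.refl _).zpow_left k))
  rw [← MonoidHom.mem_ker, ← h4]; rfl

/-! ### Homomorphisms from labellings -/

theorem exists_rel_hom {G X L Y : Type*} [Group G] [MulAction G X] [Group L] [MulAction L Y]
    {R : Set (X × Y)} (hR : R.Finite) (hsep : ∀ σ : L, (∀ p ∈ R, (p.1, σ • p.2) ∈ R) → σ = 1)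
    {S : Set G} (h : ∀ g ∈ S, ∃ σ : L, ∀ p ∈ R, (g • p.1, σ • p.2) ∈ R) :
    ∃ θ : closure S →* L, ∀ (g : closure S) (σ : L),
      θ g = σ ↔ ∀ p ∈ R, (g.1 • p.1, σ • p.2) ∈ R := by
  letI : MulAction (G × L) (X × Y) :=
    { smul := fun a p => (a.1 • p.1, a.2 • p.2)
      one_smul := fun p => Prod.ext (one_smul _ _) (one_smul _ _)
      mul_smul := fun a b p => Prod.ext (mul_smul _ _ _) (mul_smul _ _ _) }
  let Γ : Subgroup (G × L) := closure {a | ∀ p ∈ R, a • p ∈ R}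
  have hΓ : ∀ a, a ∈ Γ ↔ ∀ p ∈ R, (a.1 • p.1, a.2 • p.2) ∈ R := fun a =>
    ⟨closure_smul_mem hR (fun _ h => h) a, fun h => subset_closure h⟩
  have h1 : ∀ g σ τ, (g, σ) ∈ Γ → (g, τ) ∈ Γ → σ = τ := fun g σ τ a b =>
    inv_mul_eq_one.1 (hsep _ (by simpa using (hΓ _).1 (mul_mem (inv_mem a) b)))
  have h2 : closure S ≤ Γ.map (MonoidHom.fst _ _) := (closure_le _).2 fun g hg =>
    let ⟨σ, hσ⟩ := h g hg; ⟨(g, σ), (hΓ _).2 hσ, rfl⟩
  have h3 : ∀ g : closure S, ∃ σ, (g.1, σ) ∈ Γ := fun g => by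
    obtain ⟨a, ha, e⟩ := h2 g.2
    exact ⟨a.2, e ▸ ha⟩
  choose f hf using h3
  exact ⟨MonoidHom.mk' f fun a b => h1 _ _ _ (hf _) (mul_mem (hf a) (hf b)), fun g σ =>
    ⟨fun e => (hΓ (g.1, σ)).1 (e ▸ hf g), fun e => h1 _ _ _ (hf g) ((hΓ (g.1, σ)).2 e)⟩⟩

/-- The labelling `t` is compatible with the pairs `ps` of generators. -/
noncomputable def labChk (ap ap' : ℕ → ℕ → ℕ) (ps : List (ℕ × ℕ)) (t : T) : Bool :=
  ps.all fun p => t.all fun k a _ => force (ap p.1 k) fun k' => force (ap' p.2 a) fun a' =>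
    t.find k' fun b _ => Nat.beq b a'

theorem exists_lab_hom {G X L Y : Type*} [Group G] [MulAction G X] [Group L] [MulAction L Y]
    {c : G → ℕ} {ix : X → ℕ} {ap : ℕ → ℕ → ℕ} (A : AC c Set.univ ix ap)
    {c' : L → ℕ} {iy : Y → ℕ} {ap' : ℕ → ℕ → ℕ} (A' : AC c' Set.univ iy ap')
    (hi : Function.Injective c') {ps : List (ℕ × ℕ)} {l l' : List ℕ} (hl : ps.map Prod.fst = l)
    (hl' : ps.map Prod.snd = l') (hv : Valid c l) (hv' : Valid c' l') {t : T} {hi' : ℕ}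
    (hs : t.srt 0 hi' = true) (hx : ∀ k < hi', k ∈ t.keys → ∃ x, ix x = k)
    (h : labChk ap ap' ps t = true)
    (hsep : ∀ σ : L, (∀ y, (∃ k b, (k, iy y, b) ∈ t.ents) → σ • y = y) → σ = 1) :
    ∃ θ : gen c l →* L, θ.range = gen c' l' ∧
      (∀ g : gen c l, (∀ x, t.has (ix x) = true → g.1 • x = x) → θ g = 1) ∧
      ∀ (g : gen c l) (σ : L), (c g, c' σ) ∈ ps → θ g = σ := by
  simp only [labChk, List.all_eq_true, T.all_iff, force_eq] at h
  have key : ∀ g σ, (c g, c' σ) ∈ ps → ∀ p ∈ {p : X × Y | ∃ b, (ix p.1, iy p.2, b) ∈ t.ents},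
      (g • p.1, σ • p.2) ∈ {p : X × Y | ∃ b, (ix p.1, iy p.2, b) ∈ t.ents} := fun g σ hp p ⟨b, hb⟩ => by
    obtain ⟨a', b', h1, h2⟩ := T.find_sound (h _ hp _ _ _ hb)
    rw [Nat.eq_of_beq_eq_true h2, A.ap_code g trivial, A'.ap_code σ trivial] at h1
    exact ⟨b', h1⟩
  obtain ⟨θ, hθ⟩ := exists_rel_hom (G := G) (L := L) (S := {g | c g ∈ l})
    (R := {p : X × Y | ∃ b, (ix p.1, iy p.2, b) ∈ t.ents})
    (Set.Finite.of_finite_image (f := fun p => (ix p.1, iy p.2))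
      (((List.finite_toSet t.ents).image fun e => (e.1, e.2.1)).subset (by
        rintro _ ⟨p, ⟨b, hb⟩, rfl⟩; exact ⟨_, hb, rfl⟩))
      fun p _ q _ e => Prod.ext (A.inj trivial trivial (congrArg Prod.fst e))
        (A'.inj trivial trivial (congrArg Prod.snd e)))
    (fun σ hσ => hsep σ fun y ⟨k, b, hk⟩ => by
      have hk' := T.mem_keys.2 ⟨_, _, hk⟩
      obtain ⟨x, rfl⟩ := hx k (T.srt_bound hs k hk').2 hk'
      obtain ⟨b', hb'⟩ := hσ (x, y) ⟨b, hk⟩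
      have := (T.find_complete hs hk fun a _ => Nat.beq a (iy y)).symm.trans
        (T.find_complete hs hb' _)
      exact A'.inj trivial trivial (Nat.eq_of_beq_eq_true (this ▸ Nat.beq_refl _)))
    (fun g hg => by
      obtain ⟨p, hp, e⟩ := List.mem_map.1 (hl ▸ hg : c g ∈ ps.map Prod.fst)
      obtain ⟨σ, hσ⟩ := hv' p.2 (hl' ▸ List.mem_map_of_mem hp)
      exact ⟨σ, key g σ (by rwa [hσ, ← e])⟩)
  have k2 : ∀ (g : gen c l) (σ : L), (c g, c' σ) ∈ ps → θ g = σ := fun g σ hp =>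
    (hθ g σ).2 (key _ _ hp)
  refine ⟨θ, le_antisymm ?_ (gen_le fun σ hσ => ?_), fun g hg => (hθ g 1).2 fun p ⟨b, hb⟩ => ?_, k2⟩
  · rintro _ ⟨⟨g, hg⟩, rfl⟩
    induction hg using closure_induction with
    | mem g hg =>
      obtain ⟨p, hp, e⟩ := List.mem_map.1 (hl ▸ hg : c g ∈ ps.map Prod.fst)
      obtain ⟨σ, hσ⟩ := hv' p.2 (hl' ▸ List.mem_map_of_mem hp)
      refine (k2 ⟨g, subset_closure hg⟩ σ (by rwa [hσ, ← e])).symm ▸ ?_
      exact mem_gen_of_mem (hσ ▸ hl' ▸ List.mem_map_of_mem hp)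
    | one => exact (map_one θ).symm ▸ one_mem _
    | mul a b ha hb h1 h2 => exact (map_mul θ ⟨a, ha⟩ ⟨b, hb⟩).symm ▸ mul_mem h1 h2
    | inv a ha h1 => exact (map_inv θ ⟨a, ha⟩).symm ▸ inv_mem h1
  · obtain ⟨p, hp, e⟩ := List.mem_map.1 (hl' ▸ hσ : c' σ ∈ ps.map Prod.snd)
    obtain ⟨g, hg⟩ := hv p.1 (hl ▸ List.mem_map_of_mem hp)
    exact ⟨⟨g, mem_gen_of_mem (hg ▸ hl ▸ List.mem_map_of_mem hp)⟩, k2 _ _ (by rwa [hg, ← e])⟩
  · rw [hg _ ((T.has_iff hs).2 (T.mem_keys.2 ⟨_, _, hb⟩)), one_smul]; exact ⟨b, hb⟩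

end Cfsg.Agent.Leech
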