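import Cfsg.Agent.Leech.Fix2

/-! # Glue for the centralizers of elements of odd order -/

set_option autoImplicit false

namespace Cfsg.Agent.Leech

open Cfsg.Spor Cfsg.Agent.GT Subgroup Cfsg.Agent.M24 MulAction
open scoped Pointwise symmDiff

theorem good_of {y : M24} {L L' : Type*} [Group L] [Group L'] {H : Subgroup Co0}
    (hC : C1[prm y] = H) (θ : H →* L') {X : Subgroup L'} (hX : θ.range = X) (e : X ≃* L)
    (hf : ∀ g : H, (∀ x ∈ orbit C1[prm y] x8, g.1 • x = x) → θ g = 1)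
    (hc : Nat.card C1[prm y] = orderOf y * 2 * Nat.card X) (hodd : Odd (orbit C1[prm y] x8).ncard)
    {w n : ℕ} (hF : {x : Lt | prm y • x = x}.ncard = 2 ^ (2 * w))
    (hn : {x : Lt | prm y • x = x ∧ x ∈ orbit Co0 x8}.ncard = n) : Good y L w n := by
  subst hC hX
  have h1 : Function.Surjective (e.toMonoidHom.comp θ.rangeRestrict) :=
    e.surjective.comp θ.rangeRestrict_surjective
  have h2 : ∀ g : C1[prm y], (∀ x ∈ orbit C1[prm y] x8, g • x = x) →
      e.toMonoidHom.comp θ.rangeRestrict g = 1 := fun g hg =>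
    (congrArg e (Subtype.ext (hf g hg))).trans (map_one e)
  exact ⟨_, h1, ker_of_card _ h1 h2 (by rw [hc, Nat.card_congr e.toEquiv]), hodd, h2, hF, hn⟩

theorem central_iff {G : Type*} [Group G] [Finite G] {L Y : Subgroup G} {b : G} {p n : ℕ}
    [hp : Fact p.Prime] (hY : Y = zpowers b) (hb : b ∈ L) (h3 : b ^ p = 1)
    (hL : (Nat.card L).factorization p = n) :
    (∃ P : Sylow p L, Y.subgroupOf L ≤ (center (P : Subgroup L)).map (P : Subgroup L).subtype) ↔
      p ^ n ∣ Nat.card ↥(L ⊓ C1[b]) := by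
  have e : Nat.card ↥(L ⊓ C1[b]) = Nat.card C1[(⟨b, hb⟩ : L)] := by
    rw [inf_comm, ← card_subgroupOf']
    exact congrArg (fun X : Subgroup L => Nat.card X) (Subgroup.ext fun x => by
      rw [mem_subgroupOf, mem_cent1, mem_cent1, Subtype.ext_iff]; rfl)
  simp only [e, map_subtype_center]
  constructor
  · rintro ⟨P, hP⟩
    rw [← hL, ← P.card_eq_multiplicity]
    exact card_dvd_of_le (mem_cent_iff_le_cent1.1 (hP (show b ∈ Y from hY ▸ mem_zpowers b)).2)
  · intro h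
    let c : C1[(⟨b, hb⟩ : L)] := ⟨⟨b, hb⟩, self_mem_cent1 _⟩
    obtain ⟨P, hP⟩ := (PG.isPGroup_zpowers_of_pow_eq_one (p := p) (x := c) (k := 1)
      (Subtype.ext (Subtype.ext (by simpa using h3)))).exists_le_sylow
    refine ⟨Sylow.ofCard ((P : Subgroup _).map C1[(⟨b, hb⟩ : L)].subtype) (by
      rw [card_map_of_injective (subtype_injective _), P.card_eq_multiplicity, hL]
      exact congrArg _ (le_antisymm (hL ▸ (Nat.factorization_le_iff_dvd Nat.card_pos.ne'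
        Nat.card_pos.ne').2 (card_subgroup_dvd_card _) p)
        ((hp.1.pow_dvd_iff_le_factorization Nat.card_pos.ne').1 h))), ?_⟩
    subst hY
    rintro x ⟨k, hk⟩
    rw [show x = ⟨b, hb⟩ ^ k from Subtype.ext (by simpa using hk.symm)]
    refine Subgroup.zpow_mem _ ?_ k
    exact ⟨⟨c, hP (mem_zpowers c), rfl⟩, mem_cent_iff_le_cent1.2 (map_subtype_le _)⟩

theorem prm_eq_of_pj {c d : Finset GolayPt} (hc : IsCw c) (hd : IsCw d) {σ τ : M24}
    (h : pj (sgn c * prm σ) = pj (sgn d * prm τ)) : σ = τ := by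
  rcases pj_eq.1 h with h | h
  · exact (sgn_prm_inj hd hc h).2.symm
  · rw [← mul_assoc, ng, ← sgn_symmDiff isCw_univ hc] at h
    exact (sgn_prm_inj hd (isCw_univ.symmDiff hc) h).2.symm

section

variable {G : Type*} [Group G] [Finite G] {Q B : Subgroup G} {z s : G} {Ψ : Lv → G → Prop}
  {π : C1[z] →* Co1}

theorem MT.fact_cent2 (M : MT Q z Ψ π) (a : Ψ (e8 none) s) {p n m : ℕ} [Fact p.Prime]
    (h : 2 ^ 35 * 244823040 = p ^ n * m) (hm : ¬ p ∣ m) :
    (Nat.card (centralizer ({z, s} : Set G))).factorization p = n :=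
  factorization_eq_of (by rw [cent_pair, M.card_cent2 a, h]) hm

theorem MT.reduce' (M : MT Q z Ψ π) (a : Ψ (e8 none) s) (hB : B ≤ centralizer {z, s}) {p : ℕ}
    (hp : p.Prime) (h2 : Odd p) (hc : Nat.card B = p) : ∃ b ∈ B, orderOf b = p ∧ B = zpowers b ∧
      ∃ σ : M24, orderOf σ = p ∧ ∀ k τ : M24,
      σ = k * τ * k⁻¹ → ∃ Ψ' π', MT Q z Ψ' π' ∧ Ψ' (e8 none) s ∧ Lf π' b (prm τ) := by
  obtain ⟨b, hb, ho⟩ := exists_mem_orderOf_eq hp hc.symm.dvd
  exact ⟨b, hb, ho, eq_zpowers_of_card_prime (hc ▸ hp) hb (by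
    rintro rfl; exact hp.one_lt.ne (orderOf_one.symm.trans ho)),
    M.reduce a (cent_pair z s ▸ hB hb) hp h2 ho⟩

theorem MT.dvd_iff (M : MT Q z Ψ π) (a : Ψ (e8 none) s) {b : G} (hb : b ∈ centralizer {z, s})
    {y : M24} (l : Lf π b (prm y)) (h1 : orderOf b = 3) (h2 : orderOf y = 3) :
    3 ^ 3 ∣ Nat.card ↥(centralizer {z, s} ⊓ C1[b]) ↔ 3 ^ 3 ∣ Nat.card ↥(Nm ⊓ C1[prm y]) := by
  rw [cent_pair] at hb ⊢
  obtain ⟨k, hk⟩ := M.card_cent3 a hb.2 l (h1 ▸ by decide) (odd_prm h2 (by decide))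
  rw [← Nat.Coprime.dvd_mul_right (n := 2) (by norm_num), hk, Nat.Coprime.dvd_mul_left]
  exact Nat.Coprime.pow _ _ (by norm_num)

end

theorem card_NA : Nat.card ↥(Nm ⊓ C1[prm wA]) = 64 * 1080 := by
  rw [card_Nm_cent mcode_wA (n := 64) (by decide +kernel), card_cent_wA]

theorem card_NB : Nat.card ↥(Nm ⊓ C1[prm wB]) = 16 * 504 := by
  rw [card_Nm_cent mcode_wB (n := 16) (by decide +kernel), card_cent_wB]

end Cfsg.Agent.Leech
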