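import Cfsg.Agent.Leech.Co1
import Cfsg.Agent.TT.LargeF
import Cfsg.Agent.TT.Singular
import Cfsg.Agent.GT.Quo
import Cfsg.Prelude.Def_MonsterType

/-! # Groups of Monster type -/

set_option autoImplicit false

namespace Cfsg.Agent.Leech

open Cfsg.Spor Cfsg.Agent.GT Cfsg.Agent.TT Subgroup

theorem card_abelian_le {G : Type*} [Group G] [Finite G] {Q W : Subgroup G} {z : G} (h : ES Q z)
    (hW : W ≤ Q) (hz : z ∈ W) (hab : ∀ x ∈ W, ∀ y ∈ W, Commute x y) :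
    Nat.card W * Nat.card W ≤ 2 * Nat.card Q := by
  have hn : (W.subgroupOf Q).Normal := normal_subgroupOf (h.le_norm hW hz)
  have sym : ∀ a b : Q, h.chi a b = h.chi b a := fun a b => by
    classical exact if_congr Commute.symm_iff rfl rfl
  let φ : W →* (Q ⧸ W.subgroupOf Q →* ℂˣ) :=
    { toFun := fun w => QuotientGroup.lift _ (h.chi ⟨w, hW w.2⟩) fun y hy =>
        (h.chi_eq_one _ _).2 (hab _ hy _ w.2)
      map_one' := by
        ext y
        simp only [MonoidHom.comp_apply, QuotientGroup.mk'_apply, QuotientGroup.lift_mk,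
          MonoidHom.one_apply]
        exact congrArg _ ((h.chi_eq_one _ _).2 (Commute.one_right _))
      map_mul' := fun a b => by
        refine QuotientGroup.monoidHom_ext _ (MonoidHom.ext fun y => ?_)
        change h.chi ⟨_, hW (a * b).2⟩ y = h.chi ⟨_, hW a.2⟩ y * h.chi ⟨_, hW b.2⟩ y
        rw [sym, sym _ y, sym _ y, ← map_mul]; rfl }
  have h1 : Nat.card φ.ker ≤ 2 := by
    rw [← card_zpowers_two h.zz h.ne, ← card_map_of_injective W.subtype_injective]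
    refine card_le_of_le ?_
    rintro _ ⟨w, hw, rfl⟩
    refine h.mem_zp.2 (h.cent _ (hW w.2) fun y hy => ?_)
    have := DFunLike.congr_fun (MonoidHom.mem_ker.1 hw) (QuotientGroup.mk ⟨y, hy⟩)
    exact ((h.chi_eq_one _ _).1 this).symm
  have h2 : Nat.card (Q ⧸ W.subgroupOf Q →* ℂˣ) = Nat.card (Abelianization (Q ⧸ W.subgroupOf Q)) := by
    rw [Nat.card_congr (Abelianization.lift (G := Q ⧸ W.subgroupOf Q) (A := ℂˣ))]
    have : NeZero (Monoid.exponent (Abelianization (Q ⧸ W.subgroupOf Q))) :=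
      ⟨Monoid.exponent_ne_zero_of_finite⟩
    exact CommGroup.card_monoidHom_of_hasEnoughRootsOfUnity _ ℂ
  have h3 : Nat.card (Abelianization (Q ⧸ W.subgroupOf Q)) ≤ W.relIndex Q :=
    Nat.card_le_card_of_surjective Abelianization.of fun x => Quot.exists_rep x
  have hfin : Finite (Q ⧸ W.subgroupOf Q →* ℂˣ) :=
    Nat.finite_of_card_ne_zero (by rw [h2]; exact Nat.card_pos.ne')
  have h4 : Nat.card φ.range ≤ W.relIndex Q := (card_le_card_group _).trans (h2 ▸ h3)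
  have h5 := φ.ker.card_mul_index
  rw [index_ker] at h5
  rw [← card_mul_relIndex hW]
  calc Nat.card W * Nat.card W = Nat.card W * (Nat.card φ.ker * Nat.card φ.range) := by rw [h5]
    _ ≤ Nat.card W * (2 * W.relIndex Q) := by gcongr
    _ = _ := by ring

/-- `h` centralizes `z` and induces the lattice automorphism `g`. -/
def Lf {G : Type*} [Group G] {z : G} (π : C1[z] →* Co1) (h : G) (g : Co0) : Prop :=
  ∃ hh : h ∈ C1[z], π ⟨h, hh⟩ = pj g

/-- Elementwise form of the Monster type hypothesis. -/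
structure MT {G : Type*} [Group G] (Q : Subgroup G) (z : G) (Ψ : Lv → G → Prop)
    (π : C1[z] →* Co1) : Prop extends LQ Q z where
  card : Nat.card Q = 2 ^ 25
  memQ : ∀ {v x}, Ψ v x → x ∈ Q
  ex : ∀ v, ∃ x, Ψ v x
  surj : ∀ x ∈ Q, ∃ v, Ψ v x
  mul : ∀ {v w x y}, Ψ v x → Ψ w y → Ψ (v + w) (x * y)
  cong_iff : ∀ {v w x y}, Ψ v x → Ψ w y → (Cong v.1 w.1 ↔ y = x ∨ y = x * z)
  of_cong : ∀ {v w x}, Ψ v x → Cong v.1 w.1 → Ψ w x
  mulz : ∀ {v x}, Ψ v x → Ψ v (x * z)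
  πs : Function.Surjective π
  ker : kr π = Q
  equi : ∀ {h g v x}, Lf π h g → Ψ v x → Ψ (g • v) (h * x * h⁻¹)
  wc : ∃ g, g * z * g⁻¹ ∈ Q ∧ g * z * g⁻¹ ≠ z

theorem MT.of_iso {G : Type*} [Group G] [Finite G] {z : G} {Q : Subgroup C1[z]} [Q.Normal]
    (hM : IsOfMonsterType z Q) {e : C1[z] ⧸ Q ≃* Co1} {ψ : leechLattice → Q ⧸ center Q}
    (hψ : IsLeechModTwoIso Q e ψ) :
    MT (Q.map C1[z].subtype) z (fun v x => ∃ q : Q, (q : C1[z]) = x ∧ ψ v = QuotientGroup.mk q)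
      (e.toMonoidHom.comp (QuotientGroup.mk' Q)) := by
  obtain ⟨⟨h1, h2, h3, h4, g, ⟨hg, hgQ⟩, hgz⟩, -⟩ := hM
  obtain ⟨p1, p2, p3, p4⟩ := hψ
  have hL : LQ (Q.map C1[z].subtype) z := by
    obtain ⟨w, hw⟩ := ES.of_isExtraspecial h3
    exact LQ.of_fstar h1 (by rw [← map_subtype_fstar, h2])
      (hw.map C1[z].subtype fun x _ h => Subtype.ext h).isExtraspecial
  have hc : ∀ q q' : Q, (QuotientGroup.mk q : Q ⧸ center Q) = QuotientGroup.mk q' ↔
      ((q' : C1[z]) : G) = (q : C1[z]) ∨ ((q' : C1[z]) : G) = (q : C1[z]) * z := fun q q' => by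
    rw [QuotientGroup.eq, eq_comm (b := ((q : C1[z]) : G)), ← inv_mul_eq_one,
      ← inv_mul_eq_iff_eq_mul, ← hL.mem_zp, ← hL.center_eq, Subgroup.mem_center_iff]
    constructor
    · intro h
      refine ⟨⟨_, (q⁻¹ * q').2, rfl⟩, ?_⟩
      rintro _ ⟨y, hy, rfl⟩
      exact congrArg (fun x : Q => ((x : C1[z]) : G)) (h ⟨y, hy⟩)
    · intro h y
      exact Subtype.ext (Subtype.ext (h.2 _ ⟨y, y.2, rfl⟩))
  have hcong : ∀ v w : Lv, ψ v = ψ w ↔ Cong v.1 w.1 := fun v w => by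
    have : ψ v = ψ (v - w) * ψ w := by rw [← p1, sub_add_cancel]
    rw [this, mul_eq_right, p3]
    exact ⟨fun ⟨u, hu⟩ => ⟨u, u.2, by rw [two_smul]; exact congrArg Subtype.val hu⟩,
      fun ⟨u, hu, e⟩ => ⟨⟨u, hu⟩, Subtype.ext (by rw [two_smul] at e; exact e)⟩⟩
  refine ⟨hL, by rw [card_map_of_injective C1[z].subtype_injective, h4], ?_, fun v => ?_, ?_, ?_, ?_,
    ?_, ?_,    e.surjective.comp (QuotientGroup.mk'_surjective Q), ?_, ?_, ⟨g, ⟨_, hgQ, rfl⟩, hgz⟩⟩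
  · rintro v _ ⟨q, rfl, -⟩; exact ⟨_, q.2, rfl⟩
  · obtain ⟨q, hq⟩ := QuotientGroup.mk_surjective (ψ v)
    exact ⟨_, q, rfl, hq.symm⟩
  · rintro _ ⟨x, hx, rfl⟩
    obtain ⟨v, hv⟩ := p2 (QuotientGroup.mk ⟨x, hx⟩)
    exact ⟨v, ⟨x, hx⟩, rfl, hv⟩
  · rintro v w _ _ ⟨q, rfl, hq⟩ ⟨q', rfl, hq'⟩
    exact ⟨q * q', rfl, by rw [p1, hq, hq']; rfl⟩
  · rintro v w _ _ ⟨q, rfl, hq⟩ ⟨q', rfl, hq'⟩
    rw [← hcong, hq, hq', hc]
  · rintro v w _ ⟨q, rfl, hq⟩ h
    exact ⟨q, rfl, ((hcong _ _).2 h).symm.trans hq⟩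
  · rintro v _ ⟨q, rfl, hq⟩
    obtain ⟨y, hy, e⟩ := mul_mem (show ((q : C1[z]) : G) ∈ Q.map C1[z].subtype from ⟨_, q.2, rfl⟩)
      hL.mem
    exact ⟨⟨y, hy⟩, e, hq.trans ((hc _ _).2 (Or.inr e))⟩
  · rw [kr_eq_map, MonoidHom.ker_comp_of_injective _ _ e.injective, QuotientGroup.ker_mk']
  · rintro h g v _ ⟨hh, hg⟩ ⟨q, rfl, hq⟩
    exact ⟨_, rfl, p4 ⟨h, hh⟩ g hg.symm v q hq⟩

section

variable {G : Type*} [Group G] {Q : Subgroup G} {z : G} {Ψ : Lv → G → Prop} {π : C1[z] →* Co1}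
  {h k x y s : G} {g g' : Co0} {v w : Lv}

theorem Lf.mem (a : Lf π h g) : h ∈ C1[z] := a.1
theorem Lf.one : Lf π 1 1 := ⟨one_mem _, (map_one π).trans (map_one pj).symm⟩
theorem Lf.mul (a : Lf π h g) (b : Lf π k g') : Lf π (h * k) (g * g') :=
  ⟨mul_mem a.1 b.1, by rw [map_mul, ← a.2, ← b.2, ← map_mul]; rfl⟩
theorem Lf.inv (a : Lf π h g) : Lf π h⁻¹ g⁻¹ :=
  ⟨inv_mem a.1, by rw [map_inv, ← a.2, ← map_inv]; rfl⟩
theorem Lf.pow (a : Lf π h g) (n : ℕ) : Lf π (h ^ n) (g ^ n) :=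
  ⟨pow_mem a.1 n, by rw [map_pow, ← a.2, ← map_pow]; rfl⟩
theorem Lf.pj_eq (a : Lf π h g) (b : Lf π h g') : pj g = pj g' := a.2.symm.trans b.2
theorem Lf.congr (a : Lf π h g) (e : pj g = pj g') : Lf π h g' := ⟨a.1, a.2.trans e⟩
theorem exists_lf (π : C1[z] →* Co1) (hh : h ∈ C1[z]) : ∃ g, Lf π h g :=
  let ⟨g, hg⟩ := pj_surj (π ⟨h, hh⟩); ⟨g, hh, hg.symm⟩

theorem MT.exists_lf (M : MT Q z Ψ π) (g : Co0) : ∃ h, Lf π h g :=
  let ⟨h, hh⟩ := M.πs (pj g); ⟨h, h.2, hh⟩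

theorem MT.lf_one (M : MT Q z Ψ π) : Lf π h 1 ↔ h ∈ Q := by rw [← M.ker, mem_kr, Lf, map_one]

theorem MT.zero (M : MT Q z Ψ π) : Ψ 0 1 := by
  obtain ⟨x, hx⟩ := M.ex 0
  rcases (M.cong_iff hx (M.mul hx hx)).1 (by rw [add_zero]; exact Cong.refl _) with h | h
  · rwa [mul_eq_left.1 h] at hx
  · have := M.mulz hx
    rwa [mul_left_cancel h, M.zz] at this

theorem MT.cong_zero (M : MT Q z Ψ π) (a : Ψ v x) : Cong v.1 0 ↔ x = 1 ∨ x = z := by
  rw [← one_mul z, ← M.cong_iff M.zero a]; exact ⟨Cong.symm, Cong.symm⟩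

theorem MT.sq_iff (M : MT Q z Ψ π) (a : Ψ v x) : x * x = 1 ↔ 32 ∣ sqNorm v.1 := by
  classical
  let q : G → ZMod 2 := fun x => if x * x = 1 then 0 else 1
  let b : G → G → ZMod 2 := fun x y => if Commute x y then 0 else 1
  have zc := M.zc
  have qz : ∀ x ∈ Q, q (x * z) = q x := fun x hx => by
    have : x * z * (x * z) = x * x := by
      rw [mul_assoc, ← mul_assoc z, (zc x hx).eq, mul_assoc x z z, M.zz, mul_one]
    simp only [q, this]
  have qm : ∀ x ∈ Q, ∀ y ∈ Q, q (x * y) = q x + q y + b x y := fun x hx y hy => by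
    have hz := M.ne
    by_cases hc : Commute x y
    · have : x * y * (x * y) = x * x * (y * y) := by rw [← hc.mul_mul_mul_comm]
      simp only [q, b, this, hc, if_true]
      rcases M.sq x hx with h1 | h1 <;> rcases M.sq y hy with h2 | h2 <;> simp [h1, h2, hz, M.zz]
      rfl
    · have : x * y * (x * y) = x * x * (y * y) * z := by
        have h1 := M.mul_eq hy hx fun h => hc h.symm
        rw [mul_assoc, ← mul_assoc y, h1, mul_assoc _ z, (zc y hy).eq]; group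
      simp only [q, b, this, hc, if_false]
      rcases M.sq x hx with h1 | h1 <;> rcases M.sq y hy with h2 | h2 <;> simp [h1, h2, hz, M.zz] <;>
        rfl
  have bm : ∀ x ∈ Q, ∀ y ∈ Q, ∀ w ∈ Q, b (x * y) w = b x w + b y w := fun x hx y hy w hw => by
    by_cases ha : Commute x w <;> by_cases hb : Commute y w
    · simp [b, ha, hb, ha.mul_left hb]
    · simp [b, ha, hb, not_commute_mul_right ha hb]
    · simp [b, ha, hb, not_commute_mul_left ha hb]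
    · simp [b, ha, hb, M.commute_mul hx hy hw ha hb]; rfl
  choose f hf using M.ex
  have key : ∀ {v x}, Ψ v x → q (f v) = q x := fun {v x} a => by
    rcases (M.cong_iff a (hf v)).1 (Cong.refl _) with h | h <;> rw [h]
    exact qz _ (M.memQ a)
  have m := fun v => M.memQ (hf v)
  have := quad_unique (fun v => q (f v))
    (fun v w => key (M.of_cong (hf v) ⟨-w, neg_mem w.2, by simp [two_smul]⟩))
    (fun u v w => by
      simp only [key (M.mul (M.mul (hf u) (hf v)) (hf w)), key (M.mul (hf _) (hf _)),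
        qm _ (mul_mem (m u) (m v)) _ (m w), qm _ (m _) _ (m _), bm _ (m u) _ (m v) _ (m w)]
      ring)
    (fun g v => by
      obtain ⟨h, hh⟩ := M.exists_lf g
      simp only [key (M.equi hh (hf v)), q, conj_mul, conj_eq_one_iff])
    (by
      by_contra h
      push Not at h
      obtain ⟨x, hx, y, hy, hc⟩ := M.nonab
      have h1 : ∀ x ∈ Q, q x = 0 := fun x hx => let ⟨v, hv⟩ := M.surj x hx; (key hv).symm.trans (h v)
      have := qm x hx y hy
      rw [h1 _ hx, h1 _ hy, h1 _ (mul_mem hx hy)] at this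
      simp [b, hc] at this) v
  have h16 := sixteen_dvd v.2
  rw [key a] at this
  simp only [q] at this
  split_ifs at this with h1
  · refine iff_of_true h1 ?_
    have := (ZMod.intCast_zmod_eq_zero_iff_dvd _ 2).1 this.symm
    omega
  · refine iff_of_false h1 fun h2 => ?_
    rw [(ZMod.intCast_zmod_eq_zero_iff_dvd _ 2).2 (by omega)] at this
    exact one_ne_zero this

theorem MT.comm_iff (M : MT Q z Ψ π) (a : Ψ v x) (b : Ψ w y) :
    Commute x y ↔ 16 ∣ dotInt v.1 w.1 := by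
  have h1 := M.sq_iff a
  have h2 := M.sq_iff b
  have h3 := M.sq_iff (M.mul a b)
  have hx := M.memQ a
  have hy := M.memQ b
  have := sixteen_dvd v.2
  have := sixteen_dvd w.2
  have := eight_dvd_dot v.2 w.2
  have hz := M.ne
  rw [AddSubgroup.coe_add, sqNorm_add] at h3
  by_cases hc : Commute x y
  · have e : x * y * (x * y) = x * x * (y * y) := by rw [← hc.mul_mul_mul_comm]
    rw [e] at h3
    refine iff_of_true hc ?_
    rcases M.sq x hx with e1 | e1 <;> rcases M.sq y hy with e2 | e2 <;>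
      simp only [e1, e2, hz, M.zz, mul_one, one_mul, true_iff, false_iff] at h1 h2 h3 <;> omega
  · have e : x * y * (x * y) = x * x * (y * y) * z := by
      have h1 := M.mul_eq hy hx fun h => hc h.symm
      rw [mul_assoc, ← mul_assoc y, h1, mul_assoc _ z, (M.zc y hy).eq]; group
    rw [e] at h3
    refine iff_of_false hc ?_
    rcases M.sq x hx with e1 | e1 <;> rcases M.sq y hy with e2 | e2 <;>
      simp only [e1, e2, hz, M.zz, mul_one, one_mul, true_iff, false_iff] at h1 h2 h3 <;> omega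

theorem MT.lift_conj (M : MT Q z Ψ π) (a : Ψ v x) (b : Ψ w y) (hg : Cong (g • v).1 w.1)
    (h0 : ¬ Cong w.1 0) : ∃ h, Lf π h g ∧ h * x * h⁻¹ = y := by
  obtain ⟨h, hh⟩ := M.exists_lf g
  have c := M.equi hh a
  rcases (M.cong_iff b c).1 hg.symm with e | e
  · exact ⟨h, hh, e⟩
  · rw [M.cong_zero b, not_or] at h0
    obtain ⟨q, hq, hc⟩ := M.exists_not_commute (M.memQ b) h0.1 h0.2
    refine ⟨q * h, by simpa using (M.lf_one.2 hq).mul hh, ?_⟩
    have := M.conj_of_not hq (M.memQ b) hc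
    calc q * h * x * (q * h)⁻¹ = q * (h * x * h⁻¹) * q⁻¹ := by group
      _ = q * y * q⁻¹ * (q * z * q⁻¹) := by rw [e]; group
      _ = y := by rw [this, ← (M.zc q hq).eq, mul_inv_cancel_right, mul_assoc, M.zz, mul_one]

theorem MT.conj_of_eqv (M : MT Q z Ψ π) (a : Ψ v x) (b : Ψ w y) (hg : Eqv v w.1)
    (h0 : ¬ Cong w.1 0) : ∃ h ∈ C1[z], h * x * h⁻¹ = y :=
  let ⟨_, hg⟩ := hg; let ⟨h, h1, h2⟩ := M.lift_conj a b hg h0; ⟨h, h1.1, h2⟩

theorem MT.mem_St (M : MT Q z Ψ π) (a : Ψ v x) (l : Lf π h g) (hc : h ∈ C1[x]) : g ∈ St v := by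
  have := M.equi l a
  rw [mem_cent1.1 hc, mul_inv_cancel_right] at this
  exact (M.cong_iff this a).2 (Or.inl rfl)

theorem MT.im_cent (M : MT Q z Ψ π) (a : Ψ v x) (h0 : ¬ Cong v.1 0) :
    im π (C1[z] ⊓ C1[x]) = (St v).map pj := by
  ext t
  constructor
  · intro ht
    obtain ⟨h, hh, h1, rfl⟩ := mem_im.1 ht
    obtain ⟨g, hg⟩ := Leech.exists_lf π hh
    exact ⟨g, M.mem_St a hg h1.2, hg.2.symm⟩
  · rintro ⟨g, hg, rfl⟩
    obtain ⟨h, h1, h2⟩ := M.lift_conj a a hg h0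
    exact mem_im.2 ⟨h, h1.1, ⟨h1.1, mem_cent1.2 (mul_inv_eq_iff_eq_mul.1 h2)⟩, h1.2⟩

variable [Finite G]

theorem MT.lp (M : MT Q z Ψ π) (hs : k * z * k⁻¹ ∈ Q) (hne : k * z * k⁻¹ ≠ z) :
    LP Q z (cj[k] Q) (k * z * k⁻¹) := LP.of_conj M.toLQ hs hne (by rw [M.card]; norm_num)

theorem LP_elem {S : Subgroup G} (P : LP Q z S s) : (∀ x ∈ Q ⊓ S, x * x = 1) ∧
    ∀ x ∈ Q ⊓ S, ∀ y ∈ Q ⊓ S, Commute x y := by
  constructor
  · intro x hx
    rcases P.hQ.sq x hx.1 with h | h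
    · exact h
    · exact (P.hS.sq x hx.2).resolve_right fun h' => P.ne (h'.symm.trans h)
  · intro x hx y hy
    by_contra h
    exact P.ne (mul_left_cancel ((P.hS.conj_of_not hx.2 hy.2 h).symm.trans
      (P.hQ.conj_of_not hx.1 hy.1 h)))

theorem MT.pair (M : MT Q z Ψ π) (hs : k * z * k⁻¹ ∈ Q) (hne : k * z * k⁻¹ ≠ z)
    (a : Ψ v (k * z * k⁻¹)) : ∃ g : Co0, Cong v.1 (g • e8 none).1 ∧
      im π (cj[k] Q ⊓ C1[z]) = ((cj[g] Sg).map pj) ∧ Nat.card ↥(Q ⊓ cj[k] Q) = 2 ^ 13 := by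
  have P := M.lp hs hne
  set S := cj[k] Q
  set s := k * z * k⁻¹
  have h0 : ¬ Cong v.1 0 := by rw [M.cong_zero a, not_or]; exact ⟨P.hS.ne, hne⟩
  have cS : Nat.card S = 2 ^ 25 := (card_conj k Q).trans M.card
  have c1 := P.hS.card_le_two_mul P.zS
  have c2 : Nat.card ↥(S ⊓ C1[z]) * 2 ≤ Nat.card S := by
    rw [mul_comm]
    refine PG.mul_card_le_card_of_lt P.hS.isPGroup (lt_of_le_of_ne inf_le_left fun h => ?_)
    rcases P.hS.cent z P.zS fun y hy => (mem_cent1.1 (h.ge hy).2).symm with h | h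
    · exact M.ne h
    · exact hne h.symm
  have c3 := card_abelian_le M.toES (W := Q ⊓ S) inf_le_left ⟨M.mem, P.zS⟩ (LP_elem P).2
  have c4 : Nat.card ↥(Q ⊓ S) ≤ 2 ^ 13 := by
    rw [M.card] at c3; exact Nat.mul_self_le_mul_self_iff.1 (c3.trans (by norm_num))
  have c5 : Nat.card ↥(Q ⊓ S) * Nat.card (im π (S ⊓ C1[z])) = Nat.card ↥(S ⊓ C1[z]) := by
    rw [card_im inf_le_right, M.ker, ← card_inf_mul_relIndex Q (S ⊓ C1[z]), ← inf_assoc,
      inf_eq_left.2 (inf_le_left.trans M.le_cent1)]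
  let B := (im π (S ⊓ C1[z])).comap pj
  have mB : ∀ g, g ∈ B ↔ ∃ h ∈ S, Lf π h g := fun g =>
    ⟨fun hg => let ⟨h, hh, h1, h2⟩ := mem_im.1 hg; ⟨h, h1.1, hh, h2⟩,
      fun ⟨h, h1, hh, h2⟩ => mem_im.2 ⟨h, hh, ⟨h1, hh⟩, h2⟩⟩
  have hB : IsPGroup 2 B := PG.isPGroup_iff_forall.2 fun g hg => by
    obtain ⟨h, h1, h2⟩ := (mB g).1 hg
    have := h2.pow (2 ^ 2)
    rw [P.hS.pow_four h1] at this
    refine ⟨3, ?_⟩
    rw [pow_succ, pow_mul]
    rcases pj_eq_one.1 ((this.pj_eq Lf.one).trans (map_one _)) with h | h <;> rw [h]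
    · exact one_pow _
    · rw [sq, ng_mul_self]
  have hB1 : B ≤ St v := fun g hg =>
    let ⟨_, h1, h2⟩ := (mB g).1 hg; M.mem_St a h2 (P.hS.le_cent1 h1)
  have hB2 : St v ≤ N[B] := le_norm_iff.2 fun g hg b hb => by
    obtain ⟨h, h1, h2⟩ := M.lift_conj a a hg h0
    obtain ⟨c, h3, h4⟩ := (mB b).1 hb
    exact (mB _).2 ⟨_, conj_mem_of_le_norm P.hS.nQ (mem_cent1.2 (mul_inv_eq_iff_eq_mul.1 h2)) h3,
      (h1.mul h4).mul h1.inv⟩
  have eB : im π (S ⊓ C1[z]) = B.map pj := (map_comap_eq_self_of_surjective pj_surj _).symm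
  rcases cls v with h | h | h | h
  · obtain ⟨g, hg⟩ := h
    exact absurd (by simpa using Cong.smul (w := 0) hg g⁻¹) h0
  · have : im π (S ⊓ C1[z]) = ⊥ := by
      rw [eB, Subgroup.map_eq_bot_iff, QuotientGroup.ker_mk']; exact O2_St2 h hB hB1 hB2
    rw [this, card_bot] at c5
    omega
  · have h1 := (M.sq_iff a).1 P.hS.zz
    have h2 := h.norm_mod
    rw [norm_V] at h2
    omega
  · obtain ⟨g, hg⟩ := Eqv.symm h
    rw [← St_congr hg] at hB1 hB2
    have h1 : im π (S ⊓ C1[z]) ≤ (cj[g] Sg).map pj := eB ▸ map_mono (O2_St4 hB hB1 hB2)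
    have h2 : Nat.card ((cj[g] Sg).map pj) = 2048 := by rw [map_conj, card_conj, card_E1]
    have h3 := card_le_of_le h1
    have h4 : Nat.card (im π (S ⊓ C1[z])) = 2048 := by
      by_contra h5
      have : Nat.card ↥(Q ⊓ S) * Nat.card (im π (S ⊓ C1[z])) ≤ 2 ^ 13 * 2047 :=
        Nat.mul_le_mul c4 (by omega)
      omega
    refine ⟨g, hg.symm, eq_of_le_of_card_ge h1 (by omega), ?_⟩
    rw [h4] at c5
    omega

theorem MT.conj_z_iff (M : MT Q z Ψ π) (a : Ψ v x) :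
    (IsConj z x ∧ x ≠ z) ↔ Eqv v (e8 none).1 := by
  have key : ∀ {v x}, Ψ v x → IsConj z x ∧ x ≠ z → Eqv v (e8 none).1 := fun {v x} a h => by
    obtain ⟨k, rfl⟩ := isConj_iff.1 h.1
    obtain ⟨g, hg, -⟩ := M.pair (M.memQ a) h.2 a
    exact (Eqv.of_cong hg).trans (Eqv.smul _ g).symm
  refine ⟨key a, fun h => ?_⟩
  have h0 : ¬ Cong v.1 0 := fun h0 => by
    have := (h.symm.trans (Eqv.of_cong h0)).norm_eq (norm_e8 _).le (by rw [sqNorm_zero]; omega)
    rw [norm_e8, sqNorm_zero] at this; omega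
  obtain ⟨k, h1, h2⟩ := M.wc
  obtain ⟨w, hw⟩ := M.surj _ h1
  obtain ⟨c, -, hc⟩ := M.conj_of_eqv hw a ((key hw ⟨isConj_iff.2 ⟨k, rfl⟩, h2⟩).trans h.symm) h0
  exact ⟨(isConj_iff.2 ⟨k, rfl⟩).trans (isConj_iff.2 ⟨c, hc⟩), fun e =>
    h0 ((M.cong_zero a).2 (Or.inr e))⟩

theorem MT.type_two (M : MT Q z Ψ π) (a : Ψ v x) (h2 : orderOf x = 2) (hc : ¬ IsConj z x) :
    Eqv v leechU.1 := by
  have h1 : x * x = 1 := by rw [← sq, ← h2, pow_orderOf_eq_one]
  rcases cls v with h | h | h | h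
  · obtain ⟨g, hg⟩ := h
    rcases (M.cong_zero a).1 (by simpa using Cong.smul (w := 0) hg g⁻¹) with rfl | rfl
    · simp at h2
    · exact absurd (IsConj.refl _) hc
  · exact h
  · have h1 := (M.sq_iff a).1 h1
    have h2 := h.norm_mod
    rw [norm_V] at h2
    omega
  · exact absurd ((M.conj_z_iff a).2 h).1 hc

theorem not_cong_zero {v w : Lv} (h : Eqv v w.1) (h1 : 0 < sqNorm w.1) (h2 : sqNorm w.1 ≤ 64) :
    ¬ Cong v.1 0 := fun h0 => by
  have := (h.symm.trans (Eqv.of_cong h0)).norm_eq h2 (by rw [sqNorm_zero]; omega)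
  rw [sqNorm_zero] at this; omega

end

end Cfsg.Agent.Leech
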