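import Cfsg.Agent.Leech.Mon
import Cfsg.Agent.Leech.Setting

/-! # More on groups of Monster type -/

set_option autoImplicit false

namespace Cfsg.Agent.Leech

open Cfsg.Spor Cfsg.Agent.GT Cfsg.Agent.TT Subgroup Cfsg.Agent.M24

section

variable {G : Type*} [Group G] {Q : Subgroup G} {z : G} {Ψ : Lv → G → Prop} {π : C1[z] →* Co1}
  {h k x y s t : G} {g g' : Co0} {v w : Lv}

theorem MT.twist (M : MT Q z Ψ π) (g₀ : Co0) : MT Q z (fun v x => Ψ (g₀ • v) x)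
    ((MulAut.conj (pj g₀)⁻¹).toMonoidHom.comp π) where
  toLQ := M.toLQ
  card := M.card
  memQ := M.memQ
  ex _ := M.ex _
  surj x hx := let ⟨v, hv⟩ := M.surj x hx; ⟨g₀⁻¹ • v, by rwa [smul_inv_smul]⟩
  mul a b := by rw [smul_add]; exact M.mul a b
  cong_iff a b := by rw [← M.cong_iff a b, cong_smul_iff]
  of_cong a h := M.of_cong a (h.smul g₀)
  mulz := M.mulz
  πs := (MulAut.conj _).surjective.comp M.πs
  ker := by
    rw [← M.ker, kr_eq_map, kr_eq_map, MonoidHom.ker_comp_of_injective _ _ (MulAut.conj _).injective]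
  equi {h g v x} l a := by
    have : Lf π h (g₀ * g * g₀⁻¹) := ⟨l.1, by
      rw [map_mul, map_mul, map_inv, ← l.2]; simp [mul_assoc]⟩
    have := M.equi this a
    rwa [← mul_smul, inv_mul_cancel_right, mul_smul] at this
  wc := M.wc

theorem MT.exists_twist (M : MT Q z Ψ π) (a : Ψ v x) (h : Eqv v w.1) :
    ∃ Ψ' π', MT Q z Ψ' π' ∧ Ψ' w x := by
  obtain ⟨g, hg⟩ := h
  exact ⟨_, _, M.twist g⁻¹, M.of_cong a (by simpa using hg.smul g⁻¹)⟩

theorem MT.inv' (M : MT Q z Ψ π) (a : Ψ v x) : Ψ (-v) x⁻¹ := by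
  refine M.of_cong ?_ (cong_neg v.2).symm
  rcases M.sq x (M.memQ a) with h | h
  · rwa [inv_eq_of_mul_eq_one_right h]
  · have : x⁻¹ = x * z := inv_eq_of_mul_eq_one_right (by rw [← mul_assoc, h, M.zz])
    rw [this]; exact M.mulz a

theorem es_im {H : Type*} [Group H] {R M : Subgroup G} (hE : ES Q z) (hR : R ≤ Q) (hz : z ∈ R)
    (hM : R ≤ M) (ρ : M →* H) (h1 : z ∉ kr ρ)
    (h2 : ∀ x ∈ R, (∀ y ∈ R, Commute x y) → x ∈ kr ρ ∨ x * z ∈ kr ρ)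
    (h3 : ∃ x ∈ R, ∃ y ∈ R, ¬ Commute x y) : ES (im ρ R) (ρ ⟨z, hM hz⟩) := by
  have zz : ρ ⟨z, hM hz⟩ * ρ ⟨z, hM hz⟩ = 1 := by
    rw [← map_mul, ← map_one ρ]; exact congrArg ρ (Subtype.ext hE.zz)
  have hc : ∀ x (hx : x ∈ R) y (hy : y ∈ R), Commute (ρ ⟨x, hM hx⟩) (ρ ⟨y, hM hy⟩) → Commute x y :=
    fun x hx y hy h => by
    by_contra hn
    have := hE.mul_eq (hR hx) (hR hy) hn
    have e : ρ ⟨x, hM hx⟩ * ρ ⟨y, hM hy⟩ = ρ ⟨y, hM hy⟩ * ρ ⟨x, hM hx⟩ * ρ ⟨z, hM hz⟩ := by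
      rw [← map_mul, ← map_mul, ← map_mul]; exact congrArg ρ (Subtype.ext this)
    rw [h.eq, left_eq_mul] at e
    exact h1 ((mem_kr' _).2 e)
  refine ⟨mem_im_of_mem _ hz, zz, fun h => h1 ((mem_kr' _).2 h), fun x hx => ?_,
    fun x hx y hy => ?_, fun x hx => ?_, fun x hx h => ?_, ?_⟩
  · obtain ⟨x, hx', h, rfl⟩ := mem_im.1 hx
    exact Commute.map (show Commute (⟨z, hM hz⟩ : M) ⟨x, hx'⟩ from Subtype.ext (hE.zc x (hR h))) ρ
  · obtain ⟨x, hx, h, rfl⟩ := mem_im.1 hx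
    obtain ⟨y, hy, h', rfl⟩ := mem_im.1 hy
    rw [← map_mul, ← map_inv, ← map_mul, ← map_mul]
    exact (hE.conj x (hR h) y (hR h')).imp (fun e => congrArg ρ (Subtype.ext e))
      fun e => congrArg ρ (Subtype.ext e)
  · obtain ⟨x, hx, h, rfl⟩ := mem_im.1 hx
    rw [← map_mul, ← map_one ρ]
    exact (hE.sq x (hR h)).imp (fun e => congrArg ρ (Subtype.ext e)) fun e => congrArg ρ (Subtype.ext e)
  · obtain ⟨x, hx, h', rfl⟩ := mem_im.1 hx
    refine (h2 x h' fun y hy => hc x h' y hy (h _ (mem_im_of_mem _ hy))).imp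
      (fun e => (mem_kr' _).1 e) fun e => ?_
    have := (mem_kr' (mul_mem (hM h') (hM hz))).1 e
    rw [show (⟨x * z, _⟩ : M) = ⟨x, hM h'⟩ * ⟨z, hM hz⟩ from rfl, map_mul, ← zz] at this
    exact mul_right_cancel this
  · obtain ⟨x, hx, y, hy, h⟩ := h3
    exact ⟨_, mem_im_of_mem _ hx, _, mem_im_of_mem _ hy, fun h' => h (hc x hx y hy h')⟩

theorem es_comm_mem (hE : ES Q z) (ht : t ∈ Q) {c q : G} (hc : c ∈ N[Q]) (hct : c ∈ C1[t])
    (hq : q ∈ Q) : c * q * c⁻¹ * q⁻¹ ∈ Q ⊓ C1[t] := by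
  have h1 := conj_mem_of_mem_norm hc hq
  refine ⟨Q.mul_mem h1 (Q.inv_mem hq), mem_cent1.2 ?_⟩
  have h2 : Commute (c * q * c⁻¹) t ↔ Commute q t := by
    conv_lhs => rw [← mul_inv_eq_iff_eq_mul.2 (mem_cent1.1 hct)]
    exact Commute.conj_iff c
  by_cases h : Commute q t
  · exact (h2.2 h).mul_left h.inv_left
  · exact hE.commute_mul h1 (inv_mem hq) ht (mt h2.1 h) (not_commute_inv h)

variable [Finite G]

theorem es_card_cent (hE : ES Q z) (hs : s ∈ Q) (h1 : s ≠ 1) (h2 : s ≠ z) :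
    Nat.card ↥(Q ⊓ C1[s]) * 2 = Nat.card Q := by
  refine le_antisymm ?_ (by have := hE.card_le_two_mul hs; omega)
  rw [mul_comm]
  refine PG.mul_card_le_card_of_lt hE.isPGroup (lt_of_le_of_ne inf_le_left fun h => ?_)
  rcases hE.cent s hs fun y hy => (mem_cent1.1 (h.ge hy).2).symm with h | h
  exacts [h1 h, h2 h]

theorem MT.exists_two (M : MT Q z Ψ π) (a : Ψ v t) (hv : Eqv v leechU.1) :
    ∃ k, k * z * k⁻¹ ∈ Q ∧ k * z * k⁻¹ ≠ z ∧ t ∈ cj[k] Q := by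
  obtain ⟨k, h1, h2⟩ := M.wc
  have P := M.lp h1 h2
  obtain ⟨u, hu⟩ := M.surj _ h1
  obtain ⟨g, h3, h4, -⟩ := M.pair h1 h2 hu
  have hc : IsCw (unmask 8536111) := (isCw_unmask (by norm_num)).2 (by decide +kernel)
  obtain ⟨c, hc1, hc2, hc3⟩ := mem_im.1 (h4.ge ⟨_, conj_mem_conj.2 ⟨_, hc, rfl⟩, rfl⟩)
  let v₀ : Lv := ⟨fun i => 2 * chi (unmask 4845570) i, inL_iff.1 (by decide +kernel)⟩
  obtain ⟨x, hx⟩ := M.ex (g • v₀)
  have h5 := M.mul (M.equi ⟨hc1, hc3⟩ hx) (M.inv' hx)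
  rw [← mul_smul, inv_mul_cancel_right, mul_smul, ← smul_neg, ← smul_add] at h5
  have h6 : sqNorm (g • (sgn (unmask 8536111) • v₀ + -v₀)).1 = 32 := by
    rw [norm_smul, AddSubgroup.coe_add, sgn_smul hc]; decide +kernel
  have h7 : x ∈ C1[k * z * k⁻¹] := mem_cent1.2 ((M.comm_iff hx (M.of_cong hu h3)).2 (by
    rw [dot_smul]; decide +kernel))
  have h8 : c * x * c⁻¹ * x⁻¹ ∈ cj[k] Q := by
    rw [mul_assoc, mul_assoc, ← mul_assoc x]
    exact mul_mem hc2.1 (by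
      simpa using conj_mem_of_le_norm P.hS.nQ h7 (inv_mem hc2.1))
  have hU : sqNorm leechU.1 = 32 := norm_U
  obtain ⟨h, hh, e⟩ := M.conj_of_eqv h5 a ((eqv_of_norm (h6.trans hU.symm) (by omega)).trans hv.symm)
    (not_cong_zero hv (by omega) (by omega))
  have e2 : h * k * z * (h * k)⁻¹ = h * (k * z * k⁻¹) * h⁻¹ := by group
  refine ⟨h * k, e2 ▸ conj_mem_of_le_norm M.nQ hh h1, fun h' => h2 ?_, ?_⟩
  · rw [e2, ← mul_inv_eq_iff_eq_mul.2 (mem_cent1.1 hh)] at h'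
    conv at h' => lhs; rw [mul_inv_eq_iff_eq_mul.2 (mem_cent1.1 hh)]
    exact mul_left_cancel (mul_right_cancel h')
  · rw [mul_conj, ← e]; exact conj_mem_conj.2 h8

end

theorem exists_theta {G H L : Type*} [Group G] [Group H] [Group L] {C D : Subgroup G} (π : C →* H)
    (hD : D ≤ C) (j : L →* H) (hj : Function.Injective j) (h : im π D = j.range) :
    ∃ θ : D →* L, Function.Surjective θ ∧ ∀ d : D, j (θ d) = π ⟨d, hD d.2⟩ := by
  refine ⟨(MonoidHom.ofInjective hj).symm.toMonoidHom.comp ((π.comp (inclusion hD)).codRestrict _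
    fun d => h ▸ mem_im_of_mem _ d.2), fun y => ?_, fun d => MonoidHom.apply_ofInjective_symm hj _⟩
  obtain ⟨d, h1, h2, h3⟩ := mem_im.1 (h.ge ⟨y, rfl⟩)
  exact ⟨⟨d, h2⟩, hj ((MonoidHom.apply_ofInjective_symm hj _).trans h3)⟩

end Cfsg.Agent.Leech
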