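import Cfsg.Agent.Leech.Mon2
import Cfsg.Agent.Leech.Code
import Cfsg.Agent.GT.Coprime

/-! # Centralizers of elements of odd order in groups of Monster type -/

set_option autoImplicit false

namespace Cfsg.Agent.Leech

open Cfsg.Spor Cfsg.Agent.GT Cfsg.Agent.TT Subgroup Cfsg.Agent.M24 MulAction

instance finiteLt : Finite Lt :=
  Finite.of_injective (fun x => (⟨cdx x, cdx_lt x⟩ : Fin (2 ^ 24))) fun _ _ h =>
    cdx_inj (congrArg Fin.val h)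

/-- The class of the standard frame. -/
noncomputable def x8 : Lt := cl (e8 none)

theorem cl_mem_orbit {v w : Lv} : cl v ∈ orbit Co0 (cl w) ↔ Eqv v w.1 :=
  ⟨fun ⟨g, h⟩ => Eqv.symm ⟨g, cl_eq.1 h⟩, fun h => let ⟨g, h⟩ := h.symm; ⟨g, cl_eq.2 h⟩⟩

theorem stab_x8 : stabilizer Co0 x8 = Nm := (stab_cl _).trans St_e8

theorem commute_of_pj {g y : Co0} (hy : Odd (orderOf y)) (h : Commute (pj g) (pj y)) :
    Commute g y := by
  have : pj y = pj (g * y * g⁻¹) := by rw [map_mul, map_mul, map_inv, h.eq, mul_inv_cancel_right]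
  rcases pj_eq.1 this with h | h
  · exact mul_inv_eq_iff_eq_mul.1 h
  · have h1 := congrArg (· ^ orderOf y) h
    simp only [conj_pow, (show Commute ng y from (ng_comm y).symm).mul_pow, pow_orderOf_eq_one] at h1
    obtain ⟨k, hk⟩ := hy
    rw [hk, pow_succ, pow_mul, sq, ng_mul_self] at h1
    exact absurd h1.symm (by simpa using ng_ne_one)

theorem ncard_two {α β : Type*} [Finite α] [Nonempty α] (f : α → β → Prop) (τ : α → α) {T : Set α}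
    {S : Set β} (h1 : ∀ s ∈ S, ∃ x ∈ T, f x s) (h2 : ∀ x ∈ T, ∃ s ∈ S, f x s)
    (h3 : ∀ x ∈ T, τ x ∈ T ∧ τ x ≠ x) (h4 : ∀ x s, f x s → f (τ x) s)
    (h5 : ∀ x y s t, f x s → f y t → (s = t ↔ y = x ∨ y = τ x)) : T.ncard = 2 * S.ncard := by
  choose! u hu hu' using h1
  have i1 : Set.InjOn u S := fun s hs t ht e => (h5 _ _ _ _ (hu' s hs) (hu' t ht)).2 (Or.inl e.symm)
  have i2 : Set.InjOn (fun s => τ (u s)) S := fun s hs t ht e =>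
    (h5 _ _ _ _ (h4 _ _ (hu' s hs)) (h4 _ _ (hu' t ht))).2 (Or.inl e.symm)
  have : T = u '' S ∪ (fun s => τ (u s)) '' S := by
    ext x
    constructor
    · intro hx
      obtain ⟨s, hs, h⟩ := h2 x hx
      exact ((h5 _ _ _ _ (hu' s hs) h).1 rfl).imp (fun e => ⟨s, hs, e.symm⟩) fun e => ⟨s, hs, e.symm⟩
    · rintro (⟨s, hs, rfl⟩ | ⟨s, hs, rfl⟩)
      exacts [hu s hs, (h3 _ (hu s hs)).1]
  rw [this, Set.ncard_union_eq, i1.ncard_image, i2.ncard_image, two_mul]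
  rw [Set.disjoint_left]
  rintro _ ⟨s, hs, rfl⟩ ⟨t, ht, e⟩
  obtain rfl := (h5 _ _ _ _ (hu' s hs) (h4 _ _ (hu' t ht))).2 (Or.inl e)
  exact (h3 _ (hu s hs)).2 e

section

variable {G : Type*} [Group G] [Finite G] {Q : Subgroup G} {z : G} {Ψ : Lv → G → Prop}
  {π : C1[z] →* Co1} {b q r s : G} {y : Co0} {v : Lv}

theorem MT.fix_iff (M : MT Q z Ψ π) (a : Ψ v q) (l : Lf π b y) (hb : Odd (orderOf b)) :
    q ∈ C1[b] ↔ y • cl v = cl v := by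
  rw [mem_cent1_comm]
  refine ⟨fun h => mem_St_iff.1 (M.mem_St a l h), fun h => ?_⟩
  rcases (M.cong_iff a (M.equi l a)).1 (cl_eq.1 h.symm) with e | e
  · exact mem_cent1.2 (mul_inv_eq_iff_eq_mul.1 e)
  · refine PG.mem_of_pow_mem_of_coprime_orderOf (m := 2) (mem_cent1.2 (mul_inv_eq_iff_eq_mul.1 ?_))
      (Nat.coprime_two_right.2 hb)
    calc b ^ 2 * q * (b ^ 2)⁻¹ = b * (b * q * b⁻¹) * b⁻¹ := by rw [sq]; group
      _ = b * (q * z) * b⁻¹ := by rw [e]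
      _ = b * q * b⁻¹ * (b * z * b⁻¹) := by group
      _ = q := by rw [e, mem_cent1.1 l.1, mul_inv_cancel_right, mul_assoc, M.zz, mul_one]

theorem MT.ncard_fix (M : MT Q z Ψ π) (l : Lf π b y) (hb : Odd (orderOf b)) {S : Set Lt}
    (hS : ∀ x ∈ S, y • x = x) :
    {q | q ∈ C1[b] ∧ ∃ v, Ψ v q ∧ cl v ∈ S}.ncard = 2 * S.ncard := by
  refine ncard_two (fun q x => ∃ v, Ψ v q ∧ cl v = x) (· * z) (fun x hx => ?_)
    (fun q ⟨_, v, h1, h2⟩ => ⟨_, h2, v, h1, rfl⟩) (fun q ⟨h0, v, h1, h2⟩ => ⟨⟨mul_mem h0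
      (mem_cent1_comm.1 l.1), v, M.mulz h1, h2⟩, by simpa using M.ne⟩)
    (fun q x ⟨v, h1, h2⟩ => ⟨v, M.mulz h1, h2⟩) ?_
  · obtain ⟨v, rfl⟩ := cl_surj x
    obtain ⟨q, hq⟩ := M.ex v
    exact ⟨q, ⟨(M.fix_iff hq l hb).2 (hS _ hx), v, hq, hx⟩, v, hq, rfl⟩
  · rintro q q' _ _ ⟨v, h1, rfl⟩ ⟨w, h2, rfl⟩
    rw [cl_eq, M.cong_iff h1 h2]

theorem es_cent_odd (hE : ES Q z) (hb : Odd (orderOf b)) (hn : b ∈ N[Q]) (hr : r ∈ Q ⊓ C1[b])
    (h1 : r ≠ 1) (h2 : r ≠ z) : ES (Q ⊓ C1[b]) z := by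
  rcases hE.cent_odd (A := zpowers b) (zpowers_le.2 hn) (by rwa [Nat.card_zpowers]) with h | h <;>
    rw [cent_zpowers] at h
  · rcases hE.mem_zp.1 (h.le hr) with h | h
    exacts [absurd h h1, absurd h h2]
  · exact h

theorem MT.conj_cent (M : MT Q z Ψ π) (hbz : b ∈ C1[z]) (hb : Odd (orderOf b)) (hr : r ∈ Q ⊓ C1[b])
    (hc : IsConj z r) : ∃ m ∈ C1[b], m * z * m⁻¹ = r := by
  by_cases hne : r = z
  · exact ⟨1, one_mem _, by simp [hne]⟩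
  obtain ⟨k, rfl⟩ := isConj_iff.1 hc
  have P := M.lp hr.1 hne
  have zb := mem_cent1_comm.1 hbz
  have E1 := es_cent_odd M.toES hb (M.nQ hbz) hr P.hS.ne hne
  have E2 := es_cent_odd P.hS.toES hb (P.hS.nQ (mem_cent1_comm.1 hr.2)) ⟨P.zS, zb⟩ M.ne (Ne.symm hne)
  obtain ⟨q, hq, h1⟩ := E1.exists_not_commute hr P.hS.ne hne
  obtain ⟨n, hn, h2⟩ := E2.exists_not_commute ⟨P.zS, zb⟩ M.ne (Ne.symm hne)
  refine ⟨q⁻¹ * n, mul_mem (inv_mem hq.2) hn.2, ?_⟩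
  have h3 := E1.conj_of_not hq hr h1
  rw [← P.comm.eq, ← E2.conj_of_not hn ⟨P.zS, zb⟩ h2] at h3
  calc q⁻¹ * n * z * (q⁻¹ * n)⁻¹ = q⁻¹ * (n * z * n⁻¹) * q := by group
    _ = _ := by rw [← h3]; group

theorem MT.im_cent_odd (M : MT Q z Ψ π) (l : Lf π b y) (hb : Odd (orderOf b)) (hy : Odd (orderOf y))
    {H : Subgroup G} (hH : H ≤ C1[z]) (hn : b ∈ N[H]) {X : Subgroup Co0} (hX : im π H = X.map pj)
    (hng : ng ∈ X) : im π (H ⊓ C1[b]) = (X ⊓ C1[y]).map pj := by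
  rw [im_inf_cent1_of_coprime hH l.1 hn, hX, l.2]
  · refine le_antisymm ?_ (le_inf (map_mono inf_le_left) ?_)
    · rintro _ ⟨⟨g, hg, rfl⟩, h⟩
      exact ⟨g, ⟨hg, mem_cent1.2 (commute_of_pj hy (mem_cent1.1 h))⟩, rfl⟩
    · rintro _ ⟨g, hg, rfl⟩
      exact mem_cent1.2 (by rw [← map_mul, ← map_mul, mem_cent1.1 hg.2])
  · rw [M.ker]
    exact (PG.coprime_card_of_coprime (M.isPGroup.to_le inf_le_right)
      (Nat.coprime_two_right.2 hb)).symm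

theorem MT.odd_setting {H L : Type*} [Group H] [Finite H] [Group L] (M : MT Q z Ψ π)
    (a : Ψ (e8 none) s) (hbs : b ∈ C1[s]) (l : Lf π b y) (hb : Odd (orderOf b))
    (hy : Odd (orderOf y)) (θ₀ : C1[y] →* L) (hθ₀ : Function.Surjective θ₀)
    (hk₀ : ∀ g, θ₀ g = 1 ↔ pj g ∈ zpowers (pj y)) (hodd : Odd (orbit C1[y] x8).ncard)
    (hf₀ : ∀ g : C1[y], (∀ x ∈ orbit C1[y] x8, g • x = x) → θ₀ g = 1) {w : ℕ}
    (hF : {x : Lt | y • x = x}.ncard = 2 ^ (2 * w)) (ρ : C1[b] →* H) (hρ : Function.Surjective ρ)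
    (hk : kr ρ = zpowers b) :
    ∃ (z' : H) (Q' : Subgroup C1[z']) (_ : Q'.Normal), IsExtraspecialCentralizerSetting z' Q' w ∧
      Nonempty (C1[z'] ⧸ Q' ≃* L) ∧ {x : C1[z'] | x ∈ Q' ∧ IsConj z' (x : H)}.ncard =
        1 + 2 * {x : Lt | y • x = x ∧ x ∈ orbit Co0 x8}.ncard := by
  have : Finite L := Finite.of_surjective _ hθ₀
  have zb := mem_cent1_comm.1 l.1
  have hs := (M.conj_z_iff a).2 (Eqv.refl _)
  have sR : s ∈ Q ⊓ C1[b] := ⟨M.memQ a, mem_cent1_comm.1 hbs⟩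
  have s1 : s ≠ 1 := fun h => M.ne (isConj_one_left.1 (h ▸ hs.1))
  have hQB : ∀ x ∈ Q, x ∈ kr ρ → x = 1 := fun x hx h => PG.eq_one_of_mem_of_coprime M.isPGroup hx
    (Nat.coprime_two_right.2 (hb.of_dvd_nat (orderOf_dvd_of_mem_zpowers (hk ▸ h))))
  have E := es_cent_odd M.toES hb (M.nQ l.1) sR s1 hs.2
  have ρinj : ∀ m m' : C1[b], m.1 ∈ Q → m'.1 ∈ Q → ρ m = ρ m' → m = m' := fun m m' h h' e => by
    rw [← mul_inv_eq_one, ← map_inv, ← map_mul] at e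
    exact mul_inv_eq_one.1 (Subtype.ext (hQB _ (mul_mem h (inv_mem h')) ((mem_kr' _).2 e)))
  -- elements of order at most four are determined by their images
  have ρ4 : ∀ m m' : C1[b], m.1 ^ 2 ^ 2 = 1 → m'.1 ^ 2 ^ 2 = 1 → ρ m = ρ m' → m = m' :=
    fun m m' h h' e => by
    rw [← inv_mul_eq_one, ← map_inv, ← map_mul, ← mem_kr' (m⁻¹ * m').2, hk] at e
    have h1 : Commute m.1 (m⁻¹ * m').1 := by
      obtain ⟨k, hk⟩ := e
      rw [← hk]; exact Commute.zpow_right (mem_cent1.1 m.2) k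
    have h2 : (m⁻¹ * m').1 ^ 2 ^ 2 = 1 := by
      have := h1.mul_pow (2 ^ 2)
      rwa [Subgroup.coe_mul, Subgroup.coe_inv, mul_inv_cancel_left, h, h', one_mul, eq_comm] at this
    refine inv_mul_eq_one.1 (Subtype.ext (orderOf_eq_one_iff.1 (Nat.eq_one_of_dvd_coprimes
      (Nat.coprime_two_right.2 hb |>.pow_right 2) (orderOf_dvd_of_mem_zpowers e)
      (orderOf_dvd_of_pow_eq_one h2))))
  have hD := M.im_cent_odd l hb hy le_rfl (le_normalizer l.1) (X := ⊤)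
    (by rw [im_dom_of_surj M.πs, map_top_of_surjective _ pj_surj]) trivial
  rw [top_inf_eq] at hD
  let φ : C1[y] →* (C1[y]).map pj := pj.subgroupMap _
  have hle : φ.ker ≤ θ₀.ker := fun g hg => (hk₀ g).2 (by
    rw [show pj g = 1 from congrArg Subtype.val hg]; exact one_mem _)
  let θ₁ := φ.liftOfSurjective (pj.subgroupMap_surjective _) ⟨θ₀, hle⟩
  let θ : ↥(C1[z] ⊓ C1[b]) →* L := θ₁.comp ((π.comp (inclusion inf_le_left)).codRestrict _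
    fun d => hD ▸ mem_im_of_mem _ d.2)
  have eθ : ∀ (d : ↥(C1[z] ⊓ C1[b])) (g : C1[y]), Lf π d g → θ d = θ₀ g := fun d g h =>
    (congrArg θ₁ (Subtype.ext h.2)).trans (φ.liftOfRightInverse_comp_apply _ _ _ g)
  have ex1 : ∀ d : ↥(C1[z] ⊓ C1[b]), ∃ g : C1[y], Lf π d g := fun d => by
    obtain ⟨g, hg, e⟩ := hD.le (mem_im_of_mem d.2.1 d.2)
    exact ⟨⟨g, hg⟩, d.2.1, e.symm⟩
  have ex2 : ∀ g : C1[y], ∃ d : ↥(C1[z] ⊓ C1[b]), Lf π d g := fun g => by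
    obtain ⟨d, h1, h2, e⟩ := mem_im.1 (hD.ge ⟨g, g.2, rfl⟩)
    exact ⟨⟨d, h2⟩, h1, e⟩
  have x8y : y • x8 = x8 := (M.fix_iff a l hb).1 sR.2
  have kfix : ∀ g : C1[y], θ₀ g = 1 → g • x8 = x8 := fun g hg => by
    obtain ⟨k, hk⟩ := (hk₀ g).1 hg
    rw [Subgroup.smul_def, ← act_of_pj ((map_zpow pj y k).trans hk)]
    exact zpow_mem (show y ∈ stabilizer Co0 x8 from x8y) k
  have cR : Nat.card (im ρ (Q ⊓ C1[b])) = 2 ^ (2 * w + 1) := by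
    rw [card_im_of_inf_eq_bot inf_le_right (eq_bot_iff.2 fun x hx => hQB x hx.1.1 hx.2), pow_succ',
      ← hF, ← M.ncard_fix l hb (S := {x : Lt | y • x = x}) fun _ h => h, ← Nat.card_coe_set_eq]
    refine congrArg (fun S : Set G => Nat.card S) (Set.ext fun q => ⟨fun h => ⟨h.2, ?_⟩,
      fun ⟨h, v, hv, _⟩ => ⟨M.memQ hv, h⟩⟩)
    obtain ⟨v, hv⟩ := M.surj q h.1
    exact ⟨v, hv, (M.fix_iff hv l hb).1 h.2⟩
  obtain ⟨hn, hS, -, e, -⟩ := setting_quot (D := C1[z] ⊓ C1[b]) (R := Q ⊓ C1[b]) ρ hρ zb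
    (inf_le_inf_right _ M.le_cent1) inf_le_right
    (fun m hm => ⟨mem_cent1.2 (mul_inv_eq_iff_eq_mul.1 (congrArg Subtype.val
      (ρ4 (m * ⟨z, zb⟩ * m⁻¹) ⟨z, zb⟩ (by simpa using M.pow_four M.mem) (M.pow_four M.mem)
        (by rw [map_mul, map_mul, map_inv, hm.eq, mul_inv_cancel_right])))), m.2⟩)
    inf_le_left (es_im M.toES inf_le_left E.mem inf_le_right ρ (fun h => M.ne (hQB z M.mem h))
      (fun x hx h => (E.cent x hx h).imp (fun e => by rw [e]; exact one_mem _) fun e => by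
        rw [e, M.zz]; exact one_mem _) E.nonab) cR θ
    (fun t => by
      obtain ⟨g, rfl⟩ := hθ₀ t
      obtain ⟨d, hd⟩ := ex2 g
      exact ⟨d, eθ d g hd⟩)
    (by
      refine le_antisymm (fun d hd => ?_) (sup_le (fun r hr => mem_kr.2 ⟨⟨M.le_cent1 hr.1, hr.2⟩,
        (eθ _ 1 (M.lf_one.2 hr.1)).trans (map_one _)⟩) (hk ▸ zpowers_le.2 (mem_kr.2
          ⟨⟨l.1, self_mem_cent1 b⟩, (eθ _ ⟨y, self_mem_cent1 y⟩ l).trans
            ((hk₀ _).2 (mem_zpowers _))⟩)))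
      obtain ⟨hd, h1⟩ := mem_kr.1 hd
      obtain ⟨g, hg⟩ := ex1 ⟨d, hd⟩
      obtain ⟨k, h2⟩ := PG.exists_nat_pow_of_mem_zpowers ((hk₀ g).1 ((eθ _ _ hg).symm.trans h1))
      rw [← inv_mul_cancel_right d (b ^ k), hk]
      refine mul_mem_sup ⟨M.lf_one.1 ((hg.mul (l.pow k).inv).congr ?_), C1[b].mul_mem hd.2
        (C1[b].inv_mem (pow_mem (self_mem_cent1 b) k))⟩ (pow_mem (mem_zpowers b) k)
      rw [map_mul, map_inv, map_pow, h2, mul_inv_cancel, map_one])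
    (fun N hN h2 => by
      let S := (stabilizer C1[y] x8).map θ₀
      have hS : N ≤ S := by
        by_contra hc
        have h3 := (PG.dvd_relIndex_of_not_le h2 hc).trans 
          (relIndex_dvd_relIndex_of_norm_or (M := ⊤) le_top le_top (Or.inl le_norm_of_normal))
        rw [relIndex_top_right, index_map_eq _ hθ₀ (fun g hg => kfix g hg), index_stabilizer] at h3
        exact hodd.not_two_dvd_nat h3
      refine eq_bot_iff.2 fun n hn => ?_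
      obtain ⟨g, rfl⟩ := hθ₀ n
      refine hf₀ g ?_
      rintro _ ⟨c, rfl⟩
      obtain ⟨u, hu, e⟩ := hS (hN.conj_mem' _ hn (θ₀ c))
      have := kfix (u⁻¹ * (c⁻¹ * g * c)) (by rw [map_mul, map_inv, e]; simp [mul_assoc])
      rw [mul_smul, inv_smul_eq_iff, show u • x8 = x8 from hu, mul_smul, mul_smul,
        inv_smul_eq_iff] at this
      exact this)
    (fun N _ h => eq_bot_iff.2 fun t ht => by
      obtain ⟨d, rfl, h1⟩ := h t ht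
      obtain ⟨g, hg⟩ := ex1 d
      rw [eθ d g hg]
      refine hf₀ g ?_
      rintro _ ⟨c, rfl⟩
      obtain ⟨v, hv⟩ := cl_surj (c • x8)
      obtain ⟨q, hq⟩ := M.ex v
      have h2 : q ∈ Q ⊓ C1[b] := ⟨M.memQ hq, (M.fix_iff hq l hb).2 (by
        rw [hv, Subgroup.smul_def, ← mul_smul, ← mem_cent1.1 c.2, mul_smul, x8y])⟩
      have h3 := hQB _ (mul_mem (conj_mem_of_le_norm M.nQ d.2.1 h2.1) (inv_mem h2.1)) (h1 q h2)
      have := mem_St_iff.1 (M.mem_St hq hg (mem_cent1.2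
        (mul_inv_eq_iff_eq_mul.1 (mul_inv_eq_one.1 h3))))
      simp only [← hv]; exact this)
    (by
      obtain ⟨m, hm, e⟩ := M.conj_cent l.1 hb sR hs.1
      exact ⟨m, hm, e ▸ sR, e ▸ fun h => hs.2 (mul_inv_eq_one.1
        (hQB _ (mul_mem sR.1 (inv_mem M.mem)) h))⟩)
  refine ⟨_, _, hn, hS, ⟨e⟩, ?_⟩
  have h1 : Subtype.val '' {x : C1[ρ ⟨z, zb⟩] | x ∈ (im ρ (Q ⊓ C1[b])).subgroupOf _ ∧
      IsConj (ρ ⟨z, zb⟩) (x : H)} = ρ '' {m : C1[b] | m.1 ∈ Q ∧ IsConj z m.1} := by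
    ext x
    constructor
    · rintro ⟨x, ⟨h1, h2⟩, rfl⟩
      obtain ⟨r, hr, h3, e⟩ := mem_im.1 h1
      obtain ⟨t, ht⟩ := isConj_iff.1 h2
      obtain ⟨m, rfl⟩ := hρ t
      have := ρ4 (m * ⟨z, zb⟩ * m⁻¹) ⟨r, hr⟩ (by simpa using M.pow_four M.mem) (M.pow_four h3.1)
        (by rw [map_mul, map_mul, map_inv, ht, e]; rfl)
      exact ⟨⟨r, hr⟩, ⟨h3.1, isConj_iff.2 ⟨m, congrArg Subtype.val this⟩⟩, e⟩
    · rintro ⟨r, ⟨h1, h2⟩, rfl⟩
      obtain ⟨m, hm, e⟩ := M.conj_cent l.1 hb ⟨h1, r.2⟩ h2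
      refine ⟨⟨ρ r, mem_cent1.2 (by
        rw [← map_mul, ← map_mul]; exact congrArg ρ (Subtype.ext (M.zc _ h1).symm))⟩,
        ⟨mem_im_of_mem r.2 ⟨h1, r.2⟩, isConj_iff.2 ⟨ρ ⟨m, hm⟩, ?_⟩⟩, rfl⟩
      rw [← map_inv, ← map_mul, ← map_mul]; exact congrArg ρ (Subtype.ext e)
  have h2 : Subtype.val '' {m : C1[b] | m.1 ∈ Q ∧ IsConj z m.1} = insert z
      {q | q ∈ C1[b] ∧ ∃ v, Ψ v q ∧ cl v ∈ {x : Lt | y • x = x ∧ x ∈ orbit Co0 x8}} := by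
    ext q
    constructor
    · rintro ⟨q, ⟨h1, h2⟩, rfl⟩
      obtain ⟨v, hv⟩ := M.surj _ h1
      exact or_iff_not_imp_left.2 fun h => ⟨q.2, v, hv, (M.fix_iff hv l hb).1 q.2,
        cl_mem_orbit.2 ((M.conj_z_iff hv).1 ⟨h2, h⟩)⟩
    · rintro (rfl | ⟨h1, v, hv, -, h2⟩)
      · exact ⟨⟨_, zb⟩, ⟨M.mem, IsConj.refl _⟩, rfl⟩
      · exact ⟨⟨q, h1⟩, ⟨M.memQ hv, ((M.conj_z_iff hv).2 (cl_mem_orbit.1 h2)).1⟩, rfl⟩
  rw [← Set.ncard_image_of_injective _ Subtype.val_injective, h1,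
    Set.InjOn.ncard_image fun m h m' h' => ρinj m m' h.1 h'.1,
    ← Set.ncard_image_of_injective _ Subtype.val_injective, h2, Set.ncard_insert_of_notMem
      (by rintro ⟨_, v, hv, _, h⟩; exact ((M.conj_z_iff hv).2 (cl_mem_orbit.1 h)).2 rfl),
    M.ncard_fix l hb (S := {x : Lt | y • x = x ∧ x ∈ orbit Co0 x8}) fun _ h => h.1, add_comm]

theorem MT.reduce (M : MT Q z Ψ π) (a : Ψ (e8 none) s) (hb : b ∈ C1[z] ⊓ C1[s]) {p : ℕ}
    (hp : p.Prime) (h2 : Odd p) (ho : orderOf b = p) : ∃ σ : M24, orderOf σ = p ∧ ∀ k τ : M24,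
      σ = k * τ * k⁻¹ → ∃ Ψ' π', MT Q z Ψ' π' ∧ Ψ' (e8 none) s ∧ Lf π' b (prm τ) := by
  obtain ⟨g, l, hg⟩ : ∃ g, Lf π b g ∧ g ^ p = 1 := by
    obtain ⟨g, l⟩ := Leech.exists_lf π hb.1
    have := l.pow p
    rw [← ho, pow_orderOf_eq_one, ho] at this
    rcases pj_eq_one.1 ((this.pj_eq Lf.one).trans (map_one _)) with h | h
    · exact ⟨g, l, h⟩
    · refine ⟨ng * g, l.congr (by rw [map_mul, pj_ng, one_mul]), ?_⟩
      obtain ⟨k, rfl⟩ := h2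
      rw [(show Commute ng g from (ng_comm g).symm).mul_pow, h, pow_succ, pow_mul, sq, ng_mul_self,
        one_pow, one_mul, ng_mul_self]
  have hN : zpowers g ≤ Nm := zpowers_le.2 (St_e8 ▸ M.mem_St a l hb.2)
  have g1 : g ≠ 1 := by
    rintro rfl
    have := PG.eq_one_of_mem_of_coprime M.isPGroup (M.lf_one.1 l) (ho ▸ Nat.coprime_two_right.2 h2)
    rw [this, orderOf_one] at ho
    exact hp.one_lt.ne ho
  obtain ⟨n, hn, h3⟩ := coprime_exists_conj_le (H := Sg) (U := prm.range)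
    (Or.inr (solvable_of_comm (PG.isMulCommutative_zpowers g))) (hN.trans Nm_le_norm_Sg)
    (by rw [card_Sg, PG.card_zpowers_eq_prime hp hg g1]
        exact (Nat.coprime_two_left.2 h2).pow_left 12)
    fun x hx => let ⟨c, σ, hc, e⟩ := mem_Nm.1 (hN hx); ⟨_, ⟨c, hc, rfl⟩, _, ⟨σ, rfl⟩, e⟩
  obtain ⟨σ, hσ⟩ := h3 (conj_mem_conj.2 (mem_zpowers g))
  refine ⟨σ, by rw [← orderOf_injective prm prm_injective, hσ, orderOf_conj,
    PG.orderOf_eq_prime' hp hg g1], ?_⟩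
  rintro k τ rfl
  have h4 : n⁻¹ * prm k ∈ St (e8 none) := St_e8 ▸ mul_mem (inv_mem (Sg_le_Nm hn)) (prm_mem_Nm k)
  refine ⟨_, _, M.twist (n⁻¹ * prm k), M.of_cong a (Leech.mem_St.1 h4).symm, l.1, ?_⟩
  rw [map_mul, map_mul, map_inv] at hσ
  have : prm τ = (n⁻¹ * prm k)⁻¹ * g * (n⁻¹ * prm k) := by
    rw [eq_mul_inv_iff_mul_eq.1 hσ |> fun h => (show prm τ = (prm k)⁻¹ * (n * g * n⁻¹) * prm k by
      rw [← hσ]; group)]; group
  rw [this, map_mul pj _ (n⁻¹ * prm k), map_mul pj _ g, map_inv, ← l.2]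
  simp [mul_assoc]

theorem MT.card_cent2 (M : MT Q z Ψ π) (a : Ψ (e8 none) s) :
    Nat.card ↥(C1[z] ⊓ C1[s]) = 2 ^ 35 * 244823040 := by
  have hs := (M.conj_z_iff a).2 (Eqv.refl _)
  have s1 : s ≠ 1 := fun h => M.ne (isConj_one_left.1 (h ▸ hs.1))
  have h1 := es_card_cent M.toES (M.memQ a) s1 hs.2
  have h2 := card_map_pj (St_e8 ▸ center_le_St (e8 none))
  rw [card_eq_card_inf_kr_mul (f := π) inf_le_left, M.ker, M.im_cent a (by
    rw [M.cong_zero a, not_or]; exact ⟨s1, hs.2⟩), St_e8, inf_comm, ← inf_assoc,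
    inf_eq_left.2 M.le_cent1]
  rw [M.card] at h1
  rw [card_Nm] at h2
  rw [show Nat.card ↥(Q ⊓ C1[s]) = 2 ^ 24 by omega, show Nat.card (Nm.map pj) = 2048 * 244823040 by
    omega]
  norm_num

theorem MT.card_cent3 (M : MT Q z Ψ π) (a : Ψ (e8 none) s) (hbs : b ∈ C1[s]) (l : Lf π b y)
    (hb : Odd (orderOf b)) (hy : Odd (orderOf y)) :
    ∃ k, Nat.card ↥(C1[z] ⊓ C1[s] ⊓ C1[b]) * 2 = 2 ^ k * Nat.card ↥(Nm ⊓ C1[y]) := by
  have hs := (M.conj_z_iff a).2 (Eqv.refl _)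
  have s1 : s ≠ 1 := fun h => M.ne (isConj_one_left.1 (h ▸ hs.1))
  have h1 := M.im_cent_odd l hb hy (H := C1[z] ⊓ C1[s]) inf_le_left (le_normalizer ⟨l.1, hbs⟩)
    (M.im_cent a (by rw [M.cong_zero a, not_or]; exact ⟨s1, hs.2⟩)) (ng_mem_St _)
  obtain ⟨k, hk⟩ := PG.exists_card_eq_pow (M.isPGroup.to_le
    (inf_le_right : C1[z] ⊓ C1[s] ⊓ C1[b] ⊓ Q ≤ Q))
  refine ⟨k, ?_⟩
  rw [card_eq_card_inf_kr_mul (f := π) (inf_le_left.trans inf_le_left), M.ker, h1, hk, mul_assoc,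
    card_map_pj (le_inf (center_le_St _) (center_le_centralizer _)), St_e8]

end

end Cfsg.Agent.Leech
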