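import Cfsg.Agent.Leech.Types

/-! # The invariant quadratic form on the lattice modulo two is unique -/

set_option autoImplicit false

namespace Cfsg.Agent.Leech

open Finset Cfsg.Agent.M24 Cfsg.Spor

theorem quad_unique (Q : Lv → ZMod 2) (hcoset : ∀ v w : Lv, Q (v + (w + w)) = Q v)
    (hquad : ∀ u v w : Lv, Q (u + v + w) + Q u + Q v + Q w = Q (u + v) + Q (u + w) + Q (v + w))
    (hinv : ∀ (g : Co0) (v : Lv), Q (g • v) = Q v) (hne : ∃ v : Lv, Q v ≠ 0) (v : Lv) :
    Q v = ((sqNorm v.1 / 16 : ℤ) : ZMod 2) := by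
  have hc : ∀ {v w : Lv}, Cong v.1 w.1 → Q v = Q w := fun {v w} ⟨z, hz, e⟩ => by
    rw [← hcoset w ⟨z, hz⟩]
    congr 1
    apply Subtype.ext
    rw [two_smul, sub_eq_iff_eq_add'] at e
    exact e
  have he : ∀ {v w : Lv}, Eqv v w.1 → Q v = Q w := fun ⟨g, hg⟩ => (hinv g _).symm.trans (hc hg)
  have h0 : Q 0 = 0 := by
    have := hquad 0 0 0
    simp only [add_zero] at this
    exact add_right_cancel (add_right_cancel (add_right_cancel (this.trans (by rw [zero_add]))))
  have h2 : ∀ v : Lv, sqNorm v.1 = 32 → Q v = Q leechU := fun v h =>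
    he (eqv_of_norm (h.trans norm_U.symm) (by omega))
  have h4 : ∀ v : Lv, sqNorm v.1 = 64 → Q v = Q (e8 none) := fun v h =>
    he (eqv_of_norm (h.trans (norm_e8 _).symm) (by omega))
  have q4 : Q (e8 none) = 0 := by
    let a := v44 (pt 0) (pt 1) (-1) odd_neg_one
    let b := v44 (pt 1) (pt 2) (-1) odd_neg_one
    let c := v44 (pt 2) (pt 3) (-1) odd_neg_one
    have := hquad a b c
    rw [h2 (a + b + c) (by decide +kernel), h2 a (by decide +kernel), h2 b (by decide +kernel),
      h2 c (by decide +kernel), h2 (a + b) (by decide +kernel), h4 (a + c) (by decide +kernel),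
      h2 (b + c) (by decide +kernel)] at this
    revert this; generalize Q leechU = a; generalize Q (e8 none) = b; revert a b; decide
  have q2 : Q leechU = 0 := by
    let a := v44 (pt 0) (pt 1) 1 odd_one
    let b := v44 (pt 2) (pt 3) 1 odd_one
    let c := v44 (pt 23) (pt 4) 1 odd_one
    let d : Lv := -⟨_, two_chi_mem ((isCw_unmask (m := 8536111) (by norm_num)).2
      (by decide +kernel))⟩
    have := hquad a b c
    rw [← hcoset (a + b + c) d, h4 (a + b + c + (d + d)) (by decide +kernel),
      h2 a (by decide +kernel), h2 b (by decide +kernel), h2 c (by decide +kernel),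
      h4 (a + b) (by decide +kernel), h4 (a + c) (by decide +kernel),
      h4 (b + c) (by decide +kernel), q4] at this
    revert this; generalize Q leechU = a; revert a; decide
  have q3 : Q leechV = 1 := by
    obtain ⟨v, hv⟩ := hne
    rcases cls v with h | h | h | h
    · exact absurd ((he (w := 0) h).trans h0) hv
    · exact absurd ((he (w := leechU) h).trans q2) hv
    · rw [he (w := leechV) h] at hv
      revert hv; generalize Q leechV = a; revert a; decide
    · exact absurd ((he h).trans q4) hv
  have h16 := sixteen_dvd v.2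
  have key : ∀ (w : Lv) (n : ℤ), Eqv v w.1 → sqNorm w.1 = 16 * n → Q w = n →
      Q v = ((sqNorm v.1 / 16 : ℤ) : ZMod 2) := fun w n h hn hq => by
    have := h.norm_mod
    rw [he h, hq, ZMod.intCast_eq_intCast_iff']
    push_cast; omega
  rcases cls v with h | h | h | h
  · exact key 0 0 h sqNorm_zero (by simpa using h0)
  · exact key leechU 2 h norm_U (by rw [q2]; rfl)
  · exact key leechV 3 h norm_V (by rw [q3]; rfl)
  · exact key _ 4 h (norm_e8 _) (by rw [q4]; rfl)

end Cfsg.Agent.Leech
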