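import Cfsg.Agent.Leech.Co0

/-! # Generators of the lattice, the extra automorphism, the centre, explicit orbits -/

set_option autoImplicit false

namespace Cfsg.Agent.Leech

open Finset Cfsg.Agent.M24
open scoped symmDiff Pointwise

/-- Decidable form of lattice membership. -/
def InL (x : GolayPt → ℤ) : Prop :=
  (∀ i, x i % 2 = x none % 2) ∧ (∑ i, x i) % 8 = 4 * (x none % 2) ∧
    syn (mask (univ.filter fun i => x i % 4 = x none % 2 + 2)) = 0

noncomputable instance decInL : DecidablePred InL := fun _ => by unfold InL; infer_instance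

theorem inL_iff {x : GolayPt → ℤ} : InL x ↔ x ∈ leechLattice := by
  constructor
  · rintro ⟨h1, h2, h3⟩
    rw [← isCw_iff] at h3
    set c := univ.filter fun i => x i % 4 = x none % 2 + 2
    have hi : ∀ i, i ∈ c ↔ x i % 4 = x none % 2 + 2 := fun i =>
      mem_filter.trans (and_iff_right (mem_univ _))
    have e : ∀ i, x i = x none % 2 + 2 * chi c i + 4 * ((x i - x none % 2 - 2 * chi c i) / 4) :=
      fun i => by
      have := h1 i
      unfold chi
      split_ifs with h <;> rw [hi] at h <;> omega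
    refine mem_of_form _ _ h3 ?_ e
    obtain ⟨n, hn⟩ := h3.four_dvd
    rw [sum_congr rfl fun i _ => e i] at h2
    simp only [sum_add_distrib, ← mul_sum, sum_chi, sum_const_pt, hn] at h2
    push_cast at h2
    rw [Int.even_iff]; omega
  · intro hx
    have h3 := isCw_mod_four hx (x none % 2 + 2)
    obtain ⟨m, h1, h2, -⟩ := isL_iff.1 (mem_iff.1 hx)
    have h0 := h1 none
    refine ⟨fun i => (h1 i).trans h0.symm, by rw [Int.ModEq] at *; omega, ?_⟩
    rw [← isCw_iff]
    convert h3 using 3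
    omega

/-- A vector from its list of coordinates. -/
def vec (l : List ℤ) : GolayPt → ℤ := fun p => l.getD (idx p) 0

/-- The vector `(-3, 1, …, 1)`. -/
def wv : Lv := ⟨fun i => 1 - 4 * chi {none} i, inL_iff.1 (by decide +kernel)⟩

theorem le_of_gens {H : AddSubgroup (GolayPt → ℤ)} (h1 : wv.1 ∈ H) (h2 : (e8 none).1 ∈ H)
    (h3 : ∀ i, (fun j => 4 * (chi {i} j - chi {none} j)) ∈ H)
    (h4 : (∀ i < 12, (fun j => 2 * chi (unmask (cw (2 ^ i))) j) ∈ H) ∨
      ∀ o ∈ octads, (fun j => 2 * chi o j) ∈ H) : leechLattice ≤ H := by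
  have four : ∀ y : GolayPt → ℤ, Even (∑ i, y i) → (fun i => 4 * y i) ∈ H := by
    rintro y ⟨t, ht⟩
    have : (fun i => 4 * y i) = ∑ i, y i • (fun j => 4 * (chi {i} j - chi {none} j)) +
        t • (e8 none).1 := by
      funext j
      simp only [Pi.add_apply, Finset.sum_apply, Pi.smul_apply, smul_eq_mul, e8, mul_sub,
        sum_sub_distrib, ← sum_mul, ht]
      have : ∑ i, y i * (4 * chi {i} j) = 4 * y j := by
        simp [chi, mul_comm, -Fintype.sum_option]
      rw [this]; ring
    rw [this]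
    exact add_mem (sum_mem fun i _ => zsmul_mem (h3 i) _) (zsmul_mem h2 _)
  have step : ∀ s t, IsCw s → IsCw t → (fun j => 2 * chi s j) ∈ H → (fun j => 2 * chi t j) ∈ H →
      (fun j => 2 * chi (s ∆ t) j) ∈ H := fun s t hs ht h h' => by
    have := four (chi (s ∩ t)) (by rw [sum_chi]; exact_mod_cast even_iff_two_dvd.2 (hs.even_inter ht))
    convert sub_mem (add_mem h h') this using 1
    funext j; simp only [chi_symmDiff, Pi.add_apply, Pi.sub_apply]; ring
  have h0 : (fun j => 2 * chi ∅ j) ∈ H := by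
    convert zero_mem H using 1; funext j; simp [chi]
  have two : ∀ c, IsCw c → (fun j => 2 * chi c j) ∈ H := by
    rcases h4 with h4 | h4
    · intro c hc
      exact (IsCw.induction (P := fun c => IsCw c ∧ (fun j => 2 * chi c j) ∈ H) ⟨isCw_empty, h0⟩
        (fun i hi => ⟨isCw_basis hi, h4 i hi⟩)
        (fun s t hs ht => ⟨hs.1.symmDiff ht.1, step s t hs.1 ht.1 hs.2 ht.2⟩) c hc).2
    · exact IsCw.octad_induction h0 h4 step
  intro x hx
  obtain ⟨m, c, y, hc, hy, e⟩ := mem_iff.1 hx
  have := four (fun i => y i + m * chi {none} i) (by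
    rw [sum_add_distrib, ← mul_sum, sum_chi, Int.even_iff, card_singleton]
    rw [Int.even_iff] at hy; omega)
  convert add_mem (add_mem (zsmul_mem h1 m) (two c hc)) this using 1
  funext j; simp only [e, wv, Pi.add_apply, Pi.smul_apply, smul_eq_mul]; ring

/-- Matrix times vector. -/
def mv (M : GolayPt → GolayPt → ℤ) (x : GolayPt → ℤ) : GolayPt → ℤ := fun i => ∑ j, M i j * x j

/-- `M x` is `d` times a lattice vector. -/
def GenOk (M : GolayPt → GolayPt → ℤ) (d : ℤ) (x : GolayPt → ℤ) : Prop :=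
  (∀ i, mv M x i % d = 0) ∧ InL fun i => mv M x i / d

noncomputable instance decGenOk (M : GolayPt → GolayPt → ℤ) (d : ℤ) : DecidablePred (GenOk M d) := fun _ => by
  unfold GenOk; infer_instance

theorem exists_ofMat (M : GolayPt → GolayPt → ℤ) {d : ℤ} (hd : d ≠ 0)
    (ho : ∀ j k, ∑ i, M i j * M i k = if j = k then d ^ 2 else 0)
    (h1 : GenOk M d wv.1) (h2 : GenOk M d (e8 none).1)
    (h3 : ∀ i, GenOk M d fun j => 4 * (chi {i} j - chi {none} j))
    (h4 : ∀ i < 12, GenOk M d fun j => 2 * chi (unmask (cw (2 ^ i))) j) :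
    ∃ g : Co0, ∀ (v : Lv) i, d * (g • v).1 i = mv M v.1 i := by
  let F : (GolayPt → ℤ) →+ (GolayPt → ℤ) := AddMonoidHom.mk' (mv M) fun x y => funext fun i => by
    simp only [mv, Pi.add_apply, mul_add, sum_add_distrib]
  let H := (leechLattice.map (zsmulAddGroupHom d)).comap F
  have hH : ∀ x, GenOk M d x → x ∈ H := fun x hx =>
    ⟨_, inL_iff.1 hx.2, funext fun i => Int.mul_ediv_cancel' (Int.dvd_of_emod_eq_zero (hx.1 i))⟩
  have hle := le_of_gens (hH _ h1) (hH _ h2) (fun i => hH _ (h3 i)) (Or.inl fun i hi => hH _ (h4 i hi))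
  have hex : ∀ v : Lv, ∃ w : Lv, ∀ i, d * w.1 i = mv M v.1 i := fun v =>
    let ⟨w, hw, e⟩ := hle v.2; ⟨⟨w, hw⟩, fun i => congrFun e i⟩
  choose f hf using hex
  refine ⟨mkCo0 (AddMonoidHom.mk' f fun v w => Subtype.ext (funext fun i => ?_)) fun v => ?_, hf⟩
  · apply mul_left_cancel₀ hd
    rw [AddSubgroup.coe_add, Pi.add_apply, mul_add, hf, hf, hf]
    exact congrFun (map_add F v.1 w.1) i
  · apply mul_left_cancel₀ (pow_ne_zero 2 hd)
    rw [← sqNorm_zsmul, AddMonoidHom.mk'_apply]
    have : ∑ i, (mv M v.1 i) ^ 2 = ∑ j, ∑ k, (∑ i, M i j * M i k) * (v.1 j * v.1 k) := by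
      simp only [mv, sq, sum_mul_sum]
      simp only [sum_mul]
      rw [sum_comm]
      refine sum_congr rfl fun j _ => ?_
      rw [sum_comm]
      exact sum_congr rfl fun k _ => sum_congr rfl fun i _ => by ring
    simp only [sqNorm, Pi.smul_apply, smul_eq_mul, hf, this, ho, ite_mul, zero_mul, sum_ite_eq,
      mem_univ, if_true, mul_sum]
    simp only [sq]

/-- Tetrad number of a point in the standard sextet. -/
def tl (p : GolayPt) : ℕ :=
  [0, 0, 0, 1, 5, 1, 4, 4, 2, 3, 3, 2, 2, 5, 1, 3, 5, 1, 2, 4, 3, 4, 5, 0].getD (idx p) 0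

/-- Twice the matrix of the extra automorphism. -/
def xiM (i j : GolayPt) : ℤ :=
  (if tl i = 0 then -1 else 1) * ((if i = j then 2 else 0) - if tl i = tl j then 1 else 0)

theorem exists_xi : ∃ g : Co0, ∀ (v : Lv) i, 2 * (g • v).1 i = mv xiM v.1 i :=
  exists_ofMat xiM two_ne_zero (by decide +kernel) (by decide +kernel) (by decide +kernel)
    (by decide +kernel) (by decide +kernel)

/-- The extra automorphism. -/
noncomputable def xi : Co0 := exists_xi.choose

theorem xi_apply (v : Lv) (i : GolayPt) : 2 * (xi • v).1 i = mv xiM v.1 i := exists_xi.choose_spec v i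

/-! ### Explicit orbits -/

/-- `y` is an image of `v`. -/
def Orb (v : Lv) (y : GolayPt → ℤ) : Prop := ∃ g : Co0, (g • v).1 = y

theorem Orb.refl (v : Lv) : Orb v v.1 := ⟨1, rfl⟩

theorem Orb.of_eq {v : Lv} {y : GolayPt → ℤ} (e : ∀ i, v.1 i = y i) : Orb v y := ⟨1, funext e⟩

theorem Orb.eq {v : Lv} {y : GolayPt → ℤ} (h : Orb v y) (z : GolayPt → ℤ) (e : ∀ i, y i = z i) :
    Orb v z := funext e ▸ h

theorem Orb.sg {v : Lv} {y : GolayPt → ℤ} (h : Orb v y) (m : ℕ) (z : GolayPt → ℤ)
    (e : m < 2 ^ 24 ∧ syn m = 0 ∧ ∀ i, z i = if m.testBit (idx i) = true then -y i else y i) :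
    Orb v z := by
  obtain ⟨g, rfl⟩ := h
  refine ⟨sgn (unmask m) * g, funext fun i => ?_⟩
  rw [mul_smul, sgn_apply ((isCw_unmask e.1).2 e.2.1), e.2.2]
  simp only [mem_unmask]

theorem Orb.xi {v : Lv} {y : GolayPt → ℤ} (h : Orb v y) (z : GolayPt → ℤ)
    (e : ∀ i, 2 * z i = mv xiM y i) : Orb v z := by
  obtain ⟨g, rfl⟩ := h
  refine ⟨Leech.xi * g, funext fun i => ?_⟩
  have := xi_apply (g • v) i
  rw [← e] at this
  rw [mul_smul]; omega

theorem elt_apply {p : ℕ} (hp : isM24 p = true) (a : GolayPt) : (elt p).1 a = pt (ap p (idx a)) := by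
  have h := ap_pcode (elt p).1 a
  rw [show pcode (elt p).1 = p from mcode_elt hp] at h
  rw [h, pt_idx]

theorem Orb.pr {v : Lv} {y : GolayPt → ℤ} (h : Orb v y) (p : ℕ) (z : GolayPt → ℤ)
    (e : isM24 p = true ∧ ∀ i, z (pt (ap p (idx i))) = y i) : Orb v z := by
  obtain ⟨g, rfl⟩ := h
  refine ⟨prm (elt p) * g, funext fun i => ?_⟩
  obtain ⟨j, rfl⟩ := (elt p).1.surjective i
  rw [mul_smul, prm_apply', elt_apply e.1, e.2]

/-! ### The centre and the kernel on the lattice modulo two -/

theorem exists_cw_sep {a b : GolayPt} (h : a ≠ b) : ∃ c, IsCw c ∧ a ∈ c ∧ b ∉ c := by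
  obtain ⟨g, hg, e⟩ := trans_tuples (ι := Fin 2) (by simp) (x := ![none, pt 4]) (y := ![a, b])
    (by decide) (by
      intro i j hij; fin_cases i <;> fin_cases j <;> simp_all [eq_comm])
  refine ⟨g • O0, (mem_octads.1 O0_mem).1.smul hg, ?_, ?_⟩
  · rw [show a = g none from (e 0).symm]
    exact smul_mem_smul_finset (show none ∈ O0 by rw [eq_unmask mask_O0]; decide +kernel)
  · rw [show b = g (pt 4) from (e 1).symm]
    exact fun h => (show pt 4 ∉ O0 by rw [eq_unmask mask_O0]; decide +kernel)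
      (smul_mem_smul_finset_iff g |>.1 h)

theorem exists_prm (a b : GolayPt) : ∃ σ : M24, σ.1 a = b := by
  obtain ⟨g, hg, e⟩ := trans_tuples (ι := Fin 1) (by simp) (x := fun _ => a) (y := fun _ => b)
    (Function.injective_of_subsingleton _) (Function.injective_of_subsingleton _)
  exact ⟨⟨g, hg⟩, e 0⟩

theorem mem_center_iff {g : Co0} : g ∈ Subgroup.center Co0 ↔ g = 1 ∨ g = ng := by
  constructor
  swap
  · rintro (rfl | rfl)
    · exact one_mem _
    · exact Subgroup.mem_center_iff.2 ng_comm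
  intro h
  rw [Subgroup.mem_center_iff] at h
  have h1 : ∀ j, j ≠ none → (g • e8 none).1 j = 0 := fun j hj => by
    obtain ⟨c, hc, h1, h2⟩ := exists_cw_sep hj
    have := congrArg (fun g : Co0 => (g • e8 none).1 j) (h (sgn c))
    simp only [mul_smul, sgn_e8 hc, if_neg h2, sgn_apply hc, if_pos h1] at this
    omega
  have h2 : (g • e8 none).1 none ^ 2 = 8 ^ 2 := by
    have := norm_smul g (e8 none)
    rw [norm_e8, sqNorm, sum_eq_single none (fun j _ hj => by rw [h1 j hj]; simp) (by simp)] at this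
    rw [this]; norm_num
  have h3 : ∀ s : Co0, (∀ g, g * s = s * g) → g • e8 none = s • e8 none → g = s := fun s hs e =>
    ext8 fun i => by
      obtain ⟨σ, rfl⟩ := exists_prm none i
      rw [← prm_e8, ← mul_smul, ← h, mul_smul, e, ← mul_smul, hs, mul_smul]
  rcases sq_eq_sq_iff_eq_or_eq_neg.1 h2 with h2 | h2
  · refine Or.inl (h3 1 (by simp) (Subtype.ext (funext fun j => ?_)))
    by_cases hj : j = none
    · subst hj; simp [h2, e8_apply]
    · simp [h1 j hj, e8_apply, hj]
  · refine Or.inr (h3 ng ng_comm (Subtype.ext (funext fun j => ?_)))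
    by_cases hj : j = none
    · subst hj; simp [h2, e8_apply, ng_smul]
    · simp [h1 j hj, e8_apply, hj, ng_smul]

theorem ng_mem_center : ng ∈ Subgroup.center Co0 := mem_center_iff.2 (Or.inr rfl)

/-- The vector `4 eₐ + 4 s e_b`. -/
def v44 (a b : GolayPt) (s : ℤ) (hs : Odd s) : Lv :=
  ⟨fun i => 4 * (chi {a} i + s * chi {b} i), four_mul_mem (by
    rw [sum_add_distrib, ← mul_sum, sum_chi, sum_chi]; simpa using odd_one.add_odd hs)⟩

theorem dot_v44 (x : GolayPt → ℤ) (a b : GolayPt) (s : ℤ) (hs : Odd s) :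
    dotInt x (v44 a b s hs).1 = 4 * (x a + s * x b) := by
  simp [dotInt, v44, chi, mul_add, sum_add_distrib, -Fintype.sum_option]; ring

theorem norm_v44 {a b : GolayPt} (h : a ≠ b) {s : ℤ} (hs : Odd s) (h1 : s ^ 2 = 1) :
    sqNorm (v44 a b s hs).1 = 32 := by
  rw [← dot_self, dot_v44]
  simp only [v44, chi, mem_singleton, h, h.symm, if_true, if_false]
  linear_combination 16 * h1

theorem short_pm {g : Co0} {v : Lv} (hn : sqNorm v.1 < 64) (h : Cong (g • v).1 v.1) :
    g • v = v ∨ g • v = -v := by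
  rcases short_cong v.2 (by rw [norm_smul]; omega) hn.le h with h | h | h
  · exact Or.inl (Subtype.ext h)
  · exact Or.inr (Subtype.ext h)
  · omega

theorem eq_one_of_v44 {g : Co0} (h1 : ∀ a ≠ none, g • v44 a none 1 odd_one = v44 a none 1 odd_one)
    (h2 : ∀ a ≠ none, g • v44 a none (-1) odd_neg_one = v44 a none (-1) odd_neg_one) : g = 1 :=
  ext8 fun i => by
    by_cases hi : i = none
    · subst hi
      have : e8 none = v44 (some 0) none 1 odd_one - v44 (some 0) none (-1) odd_neg_one :=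
        Subtype.ext (funext fun j => by simp [e8, v44]; ring)
      rw [this, smul_sub, h1 _ (by simp), h2 _ (by simp), one_smul]
    · have : e8 i = v44 i none 1 odd_one + v44 i none (-1) odd_neg_one :=
        Subtype.ext (funext fun j => by simp [e8, v44]; ring)
      rw [this, smul_add, h1 _ hi, h2 _ hi, one_smul]

theorem kernel_mod_two {g : Co0} (h : ∀ v : Lv, Cong (g • v).1 v.1) : g = 1 ∨ g = ng := by
  have key : ∀ g : Co0, (∀ v : Lv, Cong (g • v).1 v.1) → g • wv = wv → g = 1 := fun g h hw => by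
    have : ∀ a ≠ none, ∀ s (hs : Odd s), s ^ 2 = 1 → g • v44 a none s hs = v44 a none s hs :=
      fun a ha s hs h1 => (short_pm (by rw [norm_v44 ha hs h1]; norm_num) (h _)).resolve_right fun h2 => by
        have := dot_smul g wv (v44 a none s hs)
        rw [hw, h2, AddSubgroup.coe_neg, dot_neg, dot_v44] at this
        simp only [wv, chi, mem_singleton, ha, if_true, if_false] at this
        omega
    exact eq_one_of_v44 (fun a ha => this a ha 1 _ (by norm_num)) fun a ha => this a ha _ _ (by norm_num)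
  rcases short_pm (g := g) (v := wv) (by decide +kernel) (h _) with h1 | h1
  · exact Or.inl (key g h h1)
  · right
    have := key (ng * g) (fun v => by
      rw [mul_smul, ng_smul]; exact (cong_neg (g • v).2).trans (h v)) (by rw [mul_smul, h1, ng_smul, neg_neg])
    rw [← mul_one g, ← ng_mul_self, ← mul_assoc, ng_comm g, this, one_mul]

end Cfsg.Agent.Leech
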